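import Cfsg.Agent.Lib.MinIndexSU4.Free

/-!
In a small action every point is free for every isotropic vector.
-/

set_option autoImplicit false

namespace Cfsg.Agent.Lib.MinIndexSU4

open Matrix Module Cfsg.Agent.Lib.Forms Cfsg.Agent.Lib.Classical Cfsg.Agent.Lib.AutPSU
open Cfsg.Agent.Lib.MinIndexSU

universe u v

attribute [local instance] _root_.Classical.propDecidable

variable {F : Type u} [Field F] [Fintype F] {q : ℕ}
variable (hF : Fintype.card F = q ^ 2) {Ω : Type v} [MulAction (S 4 F q) Ω]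
include hF

theorem num_count {q M s J : ℕ} (hq : 2 ≤ q) (hM : M < (q + 1) * (q ^ 3 + 1))
    (hlow : q ^ 4 + q ^ 3 + J ≤ M) (hJ : 0 < J)
    (heq : M * s = (q ^ 2 + 1) * (q ^ 3 + 1) * J) : False := by
  obtain ⟨i, rfl⟩ : ∃ i, M = (q + 1) * q ^ 3 + i :=
    ⟨M - (q + 1) * q ^ 3, (Nat.add_sub_cancel' (by nlinarith)).symm⟩
  obtain ⟨D, hD⟩ : ∃ D, i + D = q + 1 := ⟨q + 1 - i, by
    have : i < q + 1 := by nlinarith
    omega⟩
  have hiJ : J ≤ i := by nlinarith
  have hD0 : 0 < D := by nlinarith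
  have hs : 0 < s := by
    rcases Nat.eq_zero_or_pos s with h | h
    · rw [h, mul_zero] at heq
      exact absurd heq.symm (by positivity)
    · exact h
  have hdvd : q ^ 3 + 1 ∣ D * s := by
    have h1 : ((q + 1) * q ^ 3 + i) * s + D * s = (q ^ 3 + 1) * ((q + 1) * s) := by
      rw [← add_mul, add_assoc, hD]; ring
    refine (Nat.dvd_add_right ?_).1 (h1 ▸ dvd_mul_right (q ^ 3 + 1) _)
    rw [heq]
    exact ⟨(q ^ 2 + 1) * J, by ring⟩
  have hle := Nat.le_of_dvd (Nat.mul_pos hD0 hs) hdvd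
  have h2 : (q ^ 3 + 1) * ((q + 1) * q ^ 3) ≤ (q ^ 2 + 1) * (q ^ 3 + 1) * (i * D) := by
    calc (q ^ 3 + 1) * ((q + 1) * q ^ 3) ≤ (D * s) * ((q + 1) * q ^ 3 + i) :=
          Nat.mul_le_mul hle (Nat.le_add_right _ _)
      _ = D * ((q ^ 2 + 1) * (q ^ 3 + 1) * J) := by rw [← heq]; ring
      _ ≤ D * ((q ^ 2 + 1) * (q ^ 3 + 1) * i) := Nat.mul_le_mul_left _ (Nat.mul_le_mul_left _ hiJ)
      _ = _ := by ring
  have h3 : 4 * (i * D) ≤ (q + 1) * (q + 1) := by
    rw [← hD]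
    zify
    nlinarith [sq_nonneg ((i : ℤ) - D)]
  have h4 : 4 * ((q + 1) * q ^ 3) ≤ (q ^ 2 + 1) * ((q + 1) * (q + 1)) := by
    refine Nat.le_of_mul_le_mul_left (?_ : (q ^ 3 + 1) * _ ≤ (q ^ 3 + 1) * _) (Nat.succ_pos _)
    calc _ = 4 * ((q ^ 3 + 1) * ((q + 1) * q ^ 3)) := by ring
      _ ≤ 4 * ((q ^ 2 + 1) * (q ^ 3 + 1) * (i * D)) := Nat.mul_le_mul_left _ h2
      _ = (q ^ 3 + 1) * ((q ^ 2 + 1) * (4 * (i * D))) := by ring
      _ ≤ _ := Nat.mul_le_mul_left _ (Nat.mul_le_mul_left _ h3)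
  have h5 : 4 * q ^ 3 ≤ (q ^ 2 + 1) * (q + 1) := by
    refine Nat.le_of_mul_le_mul_left (?_ : (q + 1) * _ ≤ (q + 1) * _) (Nat.succ_pos _)
    calc _ = 4 * ((q + 1) * q ^ 3) := by ring
      _ ≤ _ := h4
      _ = _ := by ring
  nlinarith [Nat.mul_le_mul_left (q * q) hq, Nat.mul_le_mul_left q hq]

variable [Fintype Ω] [MulAction.IsPretransitive (S 4 F q) Ω]

theorem free_count_eq {e f x : Fin 4 → F} (HP : Pair q e f) (hx : Valid q x) :
    (Finset.univ.filter fun y : Ω => Free hF x y).card =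
      (Finset.univ.filter fun y : Ω => Free hF e y).card := by
  obtain ⟨g, s, hs, hg⟩ := transitive hF HP (by norm_num) hx
  refine (Finset.card_bij' (fun y _ => g • y) (fun y _ => g⁻¹ • y) (fun y hy => ?_) (fun y hy => ?_)
    (fun y _ => inv_smul_smul g y) (fun y _ => smul_inv_smul g y)).symm
  · have h := (free_map hF g HP.ee y).2 (Finset.mem_filter.1 hy).2
    rw [hg, free_smul_vec hF hs hx.2] at h
    exact Finset.mem_filter.2 ⟨Finset.mem_univ _, h⟩
  · refine Finset.mem_filter.2 ⟨Finset.mem_univ _, ?_⟩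
    rw [← free_map hF g HP.ee, smul_inv_smul, hg, free_smul_vec hF hs hx.2]
    exact (Finset.mem_filter.1 hy).2

/-- Every point is free, and the degree is determined. -/
theorem all_free (hΩ : 2 ≤ Fintype.card Ω) (hM : Fintype.card Ω < (q + 1) * (q ^ 3 + 1)) :
    (∀ (x : Fin 4 → F), Valid q x → ∀ y : Ω, Free hF x y) ∧
      Fintype.card Ω = q ^ 4 + q ^ 3 := by
  have hq := Herm.two_le_q hF
  obtain ⟨e, f, HP⟩ := AutPSU.exists_pair hF (n := 4) (by norm_num)
  obtain ⟨ω₀⟩ : Nonempty Ω := Fintype.card_pos_iff.1 (by omega)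
  obtain ⟨x₀, hx₀, hxx₀, hfree₀⟩ := exists_free hF (n := 4) (m := 2) rfl le_rfl hΩ ω₀
  have hne : ∀ {x : Fin 4 → F}, Valid q x → ∃ y : Ω, Free hF x y := fun {x} hx => by
    obtain ⟨y, hy⟩ : (Finset.univ.filter fun y : Ω => Free hF x y).Nonempty := by
      rw [← Finset.card_pos, free_count_eq hF HP hx, ← free_count_eq hF HP (x := x₀) ⟨hx₀, hxx₀⟩]
      exact Finset.card_pos.2 ⟨ω₀, Finset.mem_filter.2 ⟨Finset.mem_univ _, hfree₀⟩⟩
    exact ⟨y, (Finset.mem_filter.1 hy).2⟩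
  obtain ⟨ωe, hωe⟩ := hne HP.valid_e
  have hfree := (free_facts hF HP hM hωe).2.2.2
  set J := (Finset.univ.filter fun y : Ω => ¬ Free hF e y).card with hJd
  have hsplit : (Finset.univ.filter fun y : Ω => Free hF e y).card + J = Fintype.card Ω := by
    rw [hJd, Finset.card_filter_add_card_filter_not, Finset.card_univ]
  have hJx : ∀ x ∈ validV q 4 F, (Finset.univ.filter fun y : Ω => ¬ Free hF x y).card = J := by
    intro x hx
    have h := Finset.card_filter_add_card_filter_not (s := (Finset.univ : Finset Ω))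
      (p := fun y => Free hF x y)
    rw [Finset.card_univ, free_count_eq hF HP (mem_validV.1 hx)] at h
    omega
  have hbad : ∀ y : Ω, (bad (n := 4) hF y).card = (bad (n := 4) hF ω₀).card := fun y =>
    card_bad_eq hF y ω₀
  have hdouble : Fintype.card Ω * (bad (n := 4) hF ω₀).card = N0 q 4 * J := by
    calc Fintype.card Ω * (bad (n := 4) hF ω₀).card = ∑ y : Ω, (bad (n := 4) hF y).card := by
          simp only [hbad, Finset.sum_const, Finset.card_univ, smul_eq_mul]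
      _ = ∑ y : Ω, ((validV q 4 F).filter fun x => ¬ Free hF x y).card := by
          refine Finset.sum_congr rfl fun y _ => ?_
          rw [bad, validV, Finset.filter_filter]
      _ = ∑ x ∈ validV q 4 F, (Finset.univ.filter fun y : Ω => ¬ Free hF x y).card := by
          simp only [Finset.card_filter]; exact Finset.sum_comm
      _ = _ := by rw [Finset.sum_congr rfl hJx, Finset.sum_const, smul_eq_mul, card_validV hF]
  have hdvd : q ^ 2 - 1 ∣ (bad (n := 4) hF ω₀).card := by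
    rw [Finset.card_eq_sum_card_image lineOf]
    refine Finset.dvd_sum fun A hA => ?_
    obtain ⟨v, hv, rfl⟩ := Finset.mem_image.1 hA
    obtain ⟨hvv, hvf⟩ := (mem_bad (n := 4) hF).1 hv
    refine dvd_of_eq ?_
    rw [← hF, ← Finset.card_univ (α := F), ← Finset.card_erase_of_mem (Finset.mem_univ (0 : F))]
    refine Finset.card_bij (fun l _ => l • v) (fun l hl => ?_)
      (fun l _ l' _ h => smul_left_injective F hvv.1 h) (fun w hw => ?_)
    · have hl0 := Finset.ne_of_mem_erase hl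
      exact Finset.mem_filter.2 ⟨(mem_bad (n := 4) hF).2 ⟨MinIndexSU.valid_smul hF hl0 hvv,
        by rwa [free_smul_vec hF hl0 hvv.2]⟩, lineOf_smul hl0 v⟩
    · obtain ⟨hw1, hw2⟩ := Finset.mem_filter.1 hw
      obtain ⟨l, hl⟩ : w ∈ lineOf v := by rw [← hw2]; exact ⟨1, (one_smul F w).symm⟩
      exact ⟨l, Finset.mem_erase.2 ⟨fun h => ((mem_bad (n := 4) hF).1 hw1).1.1
        (by rw [hl, h, zero_smul]), Finset.mem_univ _⟩, hl.symm⟩
  have hJ0 : J = 0 := by
    by_contra hJ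
    obtain ⟨s, hs⟩ := hdvd
    rw [hs, N0_four hF] at hdouble
    refine num_count hF (s := s) hq hM (by omega) (Nat.pos_of_ne_zero hJ) ?_
    have h4 : q ^ 4 - 1 = (q ^ 2 - 1) * (q ^ 2 + 1) := by
      obtain ⟨r, hr⟩ : ∃ r, q ^ 2 = r + 1 := ⟨q ^ 2 - 1, (Nat.sub_add_cancel (Nat.one_le_pow _ _ (by omega))).symm⟩
      rw [show q ^ 4 = q ^ 2 * q ^ 2 by ring, hr, Nat.add_sub_cancel,
        show (r + 1) * (r + 1) = r * (r + 1 + 1) + 1 by ring, Nat.add_sub_cancel]
    have h1q : 1 < q ^ 2 := Nat.one_lt_pow (by norm_num) (by omega)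
    refine Nat.eq_of_mul_eq_mul_left (n := q ^ 2 - 1) (by omega) ?_
    rw [h4] at hdouble
    linear_combination hdouble
  have hall : ∀ (x : Fin 4 → F), Valid q x → ∀ y : Ω, Free hF x y := by
    intro x hx y
    by_contra h
    have h1 := hJx x (mem_validV.2 hx)
    rw [hJ0, Finset.card_eq_zero] at h1
    exact (Finset.eq_empty_iff_forall_notMem.1 h1) y (Finset.mem_filter.2 ⟨Finset.mem_univ _, h⟩)
  refine ⟨hall, ?_⟩
  -- the orbits of the radical partition the points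
  have horb : ∀ y z : Ω, z ∈ orb hF e f y → orb hF e f z = orb hF e f y := by
    intro y z hz
    obtain ⟨w, c, hc, rfl⟩ := (mem_orb hF).1 hz
    refine Finset.Subset.antisymm (fun p hp => ?_) fun p hp => ?_
    · obtain ⟨w', c', hc', rfl⟩ := (mem_orb hF).1 hp
      refine (mem_orb hF).2 ⟨w' + w, _, hc'.mul hF hc, ?_⟩
      rw [Submodule.coe_add, ← U_mul hF HP (mem_WM.1 w'.2) (mem_WM.1 w.2) hc' hc, mul_smul]
    · obtain ⟨w', c', hc', rfl⟩ := (mem_orb hF).1 hp
      refine (mem_orb hF).2 ⟨w' + -w, _, hc'.mul hF (cond_inv hF hc), ?_⟩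
      rw [Submodule.coe_add, Submodule.coe_neg, ← U_mul hF HP (mem_WM.1 w'.2)
        (InW_neg hF HP (mem_WM.1 w.2)) hc' (cond_inv hF hc), mul_smul,
        ← U_inv hF HP (mem_WM.1 w.2) hc, inv_smul_smul]
  have hdvd3 : q ^ 3 ∣ Fintype.card Ω := by
    rw [← Finset.card_univ, Finset.card_eq_sum_card_image (fun y => orb hF e f y)]
    refine Finset.dvd_sum fun A hA => ?_
    obtain ⟨y, -, rfl⟩ := Finset.mem_image.1 hA
    rw [← (free_facts hF HP hM (hall e HP.valid_e y)).2.1]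
    refine dvd_of_eq (congrArg Finset.card (Finset.ext fun z => ?_))
    exact ⟨fun hz => Finset.mem_filter.2 ⟨Finset.mem_univ _, horb y z hz⟩,
      fun hz => (Finset.mem_filter.1 hz).2 ▸ self_mem_orb hF HP z⟩
  obtain ⟨k, hk⟩ := hdvd3
  have hMlow : q ^ 4 + q ^ 3 ≤ Fintype.card Ω := by omega
  rw [hk] at hM hMlow ⊢
  have hq3 : q + 1 < 2 * q ^ 3 := by nlinarith [Nat.mul_le_mul_left (q * q) hq]
  have h1 : q + 1 ≤ k := by
    by_contra h
    push Not at h
    nlinarith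
  have h2 : k ≤ q + 1 := by
    by_contra h
    push Not at h
    nlinarith
  rw [le_antisymm h2 h1]; ring

end Cfsg.Agent.Lib.MinIndexSU4
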