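import Cfsg.Agent.Lib.MinIndexSU4.Line

/-!
Small actions of the four-dimensional unitary groups: free points have isotropic annihilators.
-/

set_option autoImplicit false

namespace Cfsg.Agent.Lib.MinIndexSU4

open Matrix Module Cfsg.Agent.Lib.Forms Cfsg.Agent.Lib.Classical Cfsg.Agent.Lib.AutPSU
open Cfsg.Agent.Lib.MinIndexSU
open Cfsg.Agent.Lib.MinIndexSp (perp mem_perp exists_perp)

universe u v

attribute [local instance] _root_.Classical.propDecidable

variable {F : Type u} [Field F] [Fintype F] {q : ℕ}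
variable (hF : Fintype.card F = q ^ 2)
include hF

variable {e f : Fin 4 → F} (HP : Pair q e f) {Ω : Type v} [MulAction (S 4 F q) Ω]
include HP

theorem cover_one {ω : Ω} {O : Finset (WM q e f)} {u0 : WM q e f}
    (htrans : ∀ u ∈ O, ∃ (s : S 4 F q) (a : F) (hs : IsL q e f s a), psiL hF HP hs u0 = u)
    (hu0 : u0 ∈ Ann hF HP ω) :
    O.card ≤ ∑ B ∈ Tset hF HP ω, (O.filter fun u => u ∈ B).card := by
  have h := cover hF HP htrans (T := {Ann hF HP ω})
    (fun B hB => by rw [Finset.mem_singleton.1 hB]; exact Ann_mem_Tset hF HP ω)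
    (fun B hB => by rw [Finset.mem_singleton.1 hB]; exact hu0)
  rwa [Finset.card_singleton, one_mul] at h

variable [Fintype Ω]

theorem all_iso (hM : Fintype.card Ω < (q + 1) * (q ^ 3 + 1)) {ω : Ω} (hfree : Free hF e ω) :
    ∀ v ∈ Ann hF HP ω, hm q (v : Fin 4 → F) v = 0 := by
  by_contra! h
  obtain ⟨v, hv, hvv⟩ := h
  have hq := Herm.two_le_q hF
  have hA := (sum_le_card hF HP hfree).trans (Finset.card_filter_le _ _)
  rw [Finset.card_univ] at hA
  have h1 := cover_one hF HP (fun u hu => trans_an hF HP (m := 2) rfl le_rfl (mem_anV.2 hvv) hu) hv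
  have hle : ∀ B ∈ Tset hF HP ω, ((anV q e f).filter fun u => u ∈ B).card ≤ B.card := fun B _ =>
    Finset.card_le_card fun u hu => (Finset.mem_filter.1 hu).2
  have hsum := card_isoV_add_anV hF HP (m := 2) rfl
  rw [card_isoV hF HP (m := 2) rfl, N0_two hF] at hsum
  rcases (show q = 2 ∨ 3 ≤ q by omega) with h2q | h3
  swap
  · have h2 := h1.trans (Finset.sum_le_sum hle)
    obtain ⟨j, rfl⟩ : ∃ j, q = j + 3 := ⟨q - 3, by omega⟩
    rw [show (j + 3) ^ 2 - 1 = j * j + 6 * j + 8 by
      rw [show (j + 3) ^ 2 = j * j + 6 * j + 8 + 1 by ring]; omega] at hsum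
    have hX : j * j * j * j + 11 * (j * j * j) + 44 * (j * j) + 76 * j + 48 ≤
        (anV (j + 3) e f).card := by
      rw [show (j + 3) ^ (2 * 2) = j * j * j * j + 12 * (j * j * j) + 54 * (j * j) + 108 * j + 81 by ring]
        at hsum
      nlinarith
    nlinarith [Nat.mul_le_mul_left (j + 3) h2, Nat.mul_le_mul_left (j + 3) hX]
  · subst h2q
    have h20 := two_eq_zero hF rfl
    obtain ⟨u, hu, hui⟩ : ∃ u ∈ Ann hF HP ω, u ∈ isoV 2 e f := by
      by_contra! hno
      have han : ∀ a ∈ Ann hF HP ω, a ≠ 0 → hm 2 (a : Fin 4 → F) a = 1 := fun a ha ha0 => by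
        have h0 : hm 2 (a : Fin 4 → F) a ≠ 0 := fun h0 => hno a ha (mem_isoV.2 ⟨ha0, h0⟩)
        have h1 := AutPSU.hm_self_fixed hF (a : Fin 4 → F)
        rw [pow_two] at h1
        exact mul_left_cancel₀ h0 (h1.trans (mul_one _).symm)
      have hAle : (Ann hF HP ω).card ≤ 7 := by
        have hsub : Ann hF HP ω ⊆ insert 0 (anV 2 e f) := fun a ha => by
          rcases eq_or_ne a 0 with rfl | ha0
          · exact Finset.mem_insert_self _ _
          · exact Finset.mem_insert_of_mem (mem_anV.2 (by rw [han a ha ha0]; exact one_ne_zero))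
        have := (Finset.card_le_card hsub).trans (Finset.card_insert_le _ _)
        omega
      have hW := card_Ann_mul_Wst hF HP (m := 2) rfl ω
      have hge := card_Ann_ge hF HP (m := 2) rfl hfree
      have hA4 : (Ann hF HP ω).card = 4 := by
        have hdvd : (Ann hF HP ω).card ∣ 2 ^ 4 := ⟨_, hW.symm⟩
        obtain ⟨i, hi, hi'⟩ := (Nat.dvd_prime_pow Nat.prime_two).1 hdvd
        rw [hi'] at hAle hge ⊢
        have : i ≤ 2 := by
          by_contra hc; push Not at hc
          have := Nat.pow_le_pow_right (show 0 < 2 by norm_num) hc; omega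
        interval_cases i <;> omega
      set WF := Finset.univ.filter fun w => w ∈ Wst hF HP ω with hWF
      have hWc : Nat.card (Wst hF HP ω) = WF.card := by
        rw [← SetLike.coe_sort_coe, Nat.card_coe_set_eq, ← Set.ncard_coe_finset]
        congr 1; ext w; simp [hWF]
      have hsub : WF ⊆ Ann hF HP ω := fun w hw => (mem_Ann hF).2 fun w' hw' => by
        rw [kap_apply, Wst_real hF HP hfree (Finset.mem_filter.1 hw).2 hw', ← two_mul, h20, zero_mul,
          AddChar.map_zero_eq_one]
      rw [hA4, hWc] at hW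
      have heq : WF = Ann hF HP ω := Finset.eq_of_subset_of_card_le hsub (by omega)
      obtain ⟨a, ha, ha0⟩ := Finset.exists_mem_ne (s := Ann hF HP ω) (by omega) 0
      obtain ⟨b, hb, hbne⟩ : ∃ b ∈ Ann hF HP ω, b ∉ ({0, a} : Finset (WM 2 e f)) := by
        by_contra! h
        have := (Finset.card_le_card h).trans Finset.card_le_two
        omega
      simp only [Finset.mem_insert, Finset.mem_singleton, not_or] at hbne
      have hab0 : a + b ≠ 0 := fun h => hbne.2 (by
        have : b = -a := eq_neg_of_add_eq_zero_right h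
        rw [this, ← neg_one_smul F a, show (-1 : F) = 1 by linear_combination -h20, one_smul])
      have h3' := han _ (add_mem_Ann hF HP ha hb) hab0
      rw [Submodule.coe_add, hm_add_left, hm_add_right hF, hm_add_right hF, han a ha ha0,
        han b hb hbne.1] at h3'
      have hr : hm 2 (a : Fin 4 → F) b = hm 2 (b : Fin 4 → F) a :=
        Wst_real hF HP hfree (by rw [← heq] at ha; exact (Finset.mem_filter.1 ha).2)
          (by rw [← heq] at hb; exact (Finset.mem_filter.1 hb).2)
      exact one_ne_zero (show (1 : F) = 0 by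
        linear_combination (-1 : F) * h3' + (hm 2 (b : Fin 4 → F) a) * h20 + h20 + hr)
    have h2' := cover_one hF HP (fun u' hu' => trans_iso_two hF HP h20 hui hu') hu
    have h3 : ∀ B ∈ Tset hF HP ω, ((isoV 2 e f).filter fun u => u ∈ B).card +
        ((anV 2 e f).filter fun u => u ∈ B).card ≤ B.card := fun B _ => by
      rw [← Finset.card_union_of_disjoint (Finset.disjoint_filter_filter
        (Finset.disjoint_left.2 fun x hx hx' => (mem_anV.1 hx') (mem_isoV.1 hx).2))]
      refine Finset.card_le_card fun x hx => ?_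
      rcases Finset.mem_union.1 hx with hx | hx <;> exact (Finset.mem_filter.1 hx).2
    have h4 := Finset.sum_le_sum h3
    rw [Finset.sum_add_distrib] at h4
    rw [card_isoV hF HP (m := 2) rfl, N0_two hF] at h2'
    norm_num at h2' hsum hM
    omega

/-- The orbits of the radical on free points and their number. -/
theorem free_facts (hM : Fintype.card Ω < (q + 1) * (q ^ 3 + 1)) {ω : Ω} (hfree : Free hF e ω) :
    (Ann hF HP ω).card = q ^ 2 ∧ (orb hF e f ω).card = q ^ 3 ∧
      q + 1 ≤ (Tset hF HP ω).card ∧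
      q ^ 4 + q ^ 3 ≤ (Finset.univ.filter fun y : Ω => Free hF e y).card := by
  have hall := all_iso hF HP hM hfree
  obtain ⟨hc, hreal, -, hlin⟩ := iso_struct hF HP (m := 2) rfl hfree hall
  have hq := Herm.two_le_q hF
  have h1q : 1 < q ^ 2 := Nat.one_lt_pow (by norm_num) (by omega)
  obtain ⟨u, hu, hu0⟩ := Finset.exists_mem_ne (s := Ann hF HP ω) (by omega) 0
  have hui : u ∈ isoV q e f := mem_isoV.2 ⟨hu0, hall u hu⟩
  have hcov : ∀ u' ∈ isoV q e f, ∃ B ∈ Tset hF HP ω, u' ∈ B := by
    intro u' hu'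
    by_cases h2 : (2 : F) = 0
    · obtain ⟨s, a, hs, hsu⟩ := trans_iso_two hF HP h2 hui hu'
      exact ⟨_, Tset_psiL hF HP hs (Ann_mem_Tset hF HP ω), Finset.mem_image.2 ⟨u, hu, hsu⟩⟩
    · have h0 : ∀ a ∈ Ann hF HP ω, ∀ b ∈ Ann hF HP ω, hm q (a : Fin 4 → F) b = 0 := by
        intro a ha b hb
        have h := hall _ (add_mem_Ann hF HP ha hb)
        rw [Submodule.coe_add, hm_add_left, hm_add_right hF, hm_add_right hF, hall a ha, hall b hb,
          hm_swap hF (a : Fin 4 → F) b, hreal a ha b hb, zero_add, add_zero, ← two_mul] at h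
        exact (mul_eq_zero.1 h).resolve_left h2
      obtain ⟨hu0', huu'⟩ := mem_isoV.1 hu'
      obtain ⟨s, a, hs, hsu⟩ := move_iso hF HP (mem_WM.1 u.2) (fun h => hu0 (Subtype.ext h))
        (hall u hu) (mem_WM.1 u'.2) (fun h => hu0' (Subtype.ext h)) huu'
      refine ⟨_, Tset_psiL hF HP hs (Ann_mem_Tset hF HP ω),
        Finset.mem_image.2 ⟨a • u, hlin h0 a u hu, Subtype.ext ?_⟩⟩
      simp only [psiL, Submodule.coe_smul, mulVec_smul, hsu, smul_smul, inv_mul_cancel₀ hs.1,
        one_smul]
  have hT : q + 1 ≤ (Tset hF HP ω).card := by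
    have h := Finset.card_le_card (s := isoV q e f)
      (t := (Tset hF HP ω).biUnion fun B => B.erase 0) fun u' hu' => by
        obtain ⟨B, hB, hB'⟩ := hcov u' hu'
        exact Finset.mem_biUnion.2 ⟨B, hB, Finset.mem_erase.2 ⟨(mem_isoV.1 hu').1, hB'⟩⟩
    have h' := h.trans (Finset.card_biUnion_le_card_mul _ _ (q ^ 2 - 1) fun B hB => ?_)
    · rw [card_isoV hF HP (m := 2) rfl, N0_two hF, mul_comm] at h'
      exact Nat.le_of_mul_le_mul_right h' (by omega)
    · obtain ⟨t, b, ht, hBe⟩ := (mem_Tset hF).1 hB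
      rw [Finset.card_erase_of_mem (hBe ▸ zero_mem_Ann hF HP _), Tset_card hF HP hB, hc]
  refine ⟨hc, by rw [card_orb hF HP hfree, hc]; ring, hT, le_trans ?_ (sum_le_card hF HP hfree)⟩
  rw [Finset.sum_congr rfl fun B hB => (Tset_card hF HP hB).trans hc, Finset.sum_const, smul_eq_mul]
  calc q ^ 4 + q ^ 3 = q * ((q + 1) * q ^ 2) := by ring
    _ ≤ _ := Nat.mul_le_mul_left _ (Nat.mul_le_mul_right _ hT)

end Cfsg.Agent.Lib.MinIndexSU4
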