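import Cfsg.Agent.Lib.MinIndexSU.Main

/-!
The four-dimensional unitary space: isotropic vectors of the orthogonal plane and isotropic lines.
-/

set_option autoImplicit false

namespace Cfsg.Agent.Lib.MinIndexSU4

open Matrix Module Cfsg.Agent.Lib.Forms Cfsg.Agent.Lib.Classical Cfsg.Agent.Lib.AutPSU
open Cfsg.Agent.Lib.MinIndexSU

universe u v

attribute [local instance] _root_.Classical.propDecidable

variable {F : Type u} [Field F] [Fintype F] {q : ℕ}
variable (hF : Fintype.card F = q ^ 2)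
include hF

theorem N0_two : N0 q 2 = (q ^ 2 - 1) * (q + 1) := by
  simp [N0]

theorem N0_four : N0 q 4 = (q ^ 4 - 1) * (q ^ 3 + 1) := by
  simp [N0, show Even 4 from ⟨2, rfl⟩]

variable {e f : Fin 4 → F} (HP : Pair q e f)
include HP

/-- The Levi elements are transitive on the isotropic points of the plane. -/
theorem move_iso {u u' : Fin 4 → F} (hu : InW q e f u) (hu0 : u ≠ 0) (huu : hm q u u = 0)
    (hu' : InW q e f u') (hu0' : u' ≠ 0) (huu' : hm q u' u' = 0) :
    ∃ (s : S 4 F q) (a : F), IsL q e f s a ∧ mat s *ᵥ u = u' := by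
  obtain ⟨M, hd, hiso, he, hf, hM⟩ := witt_pair hF HP (k := 1) (x := fun _ => u) (x' := fun _ => u')
    (fun _ => hu) (fun _ => hu')
    (LinearIndependent.of_subsingleton (v := fun _ : Fin 1 => _) 0 hu0)
    (LinearIndependent.of_subsingleton (v := fun _ : Fin 1 => _) 0 hu0')
    (fun _ _ => by rw [huu, huu'])
  obtain ⟨s, a, hs, hsx⟩ := fix_det hF HP hd hiso he hf
  exact ⟨s, a, hs, by rw [hsx u hu, hM 0]⟩

/-- In characteristic two they are transitive on the isotropic vectors of the plane. -/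
theorem trans_iso_two (h2 : (2 : F) = 0) {u u' : WM q e f} (hu : u ∈ isoV q e f)
    (hu' : u' ∈ isoV q e f) :
    ∃ (s : S 4 F q) (a : F) (hs : IsL q e f s a), psiL hF HP hs u = u' := by
  rw [mem_isoV] at hu hu'
  have hu0 : (u : Fin 4 → F) ≠ 0 := fun h => hu.1 (Subtype.ext h)
  have hu0' : (u' : Fin 4 → F) ≠ 0 := fun h => hu'.1 (Subtype.ext h)
  obtain ⟨s₀, a, hs₀, hmove⟩ :=
    move_iso hF HP (mem_WM.1 u.2) hu0 hu.2 (mem_WM.1 u'.2) hu0' hu'.2
  haveI : CharP F 2 := (CharTwo.of_one_ne_zero_of_two_eq_zero one_ne_zero h2)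
  obtain ⟨r, hr⟩ := FiniteField.isSquare_of_char_two (F := F) (CharP.ringChar_of_prime_eq_zero Nat.prime_two (by exact_mod_cast h2)) (a * a ^ q)
  have hrr : r ^ q = r := by
    have h : r ^ q * r ^ q = r * r := by
      rw [← mul_pow, ← hr, mul_pow, Herm.conj_conj hF, mul_comm]
    have h' : (r ^ q + r) * (r ^ q + r) = 0 := by linear_combination h + (r * r + r ^ q * r) * h2
    rw [mul_self_eq_zero] at h'
    linear_combination h' - r * h2
  have hr0 : r ≠ 0 := fun h => mul_ne_zero hs₀.1 (pow_ne_zero q hs₀.1) (by rw [hr, h, mul_zero])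
  obtain ⟨b, hb0, hb⟩ := exists_hilbert hF (d := a * r⁻¹) (by
    rw [mul_pow, inv_pow, hrr]; field_simp; linear_combination hr)
  obtain ⟨v, hv, hp⟩ := exists_partner_mem hF (finrank_WM hF HP).2 (mem_WM.2 (mem_WM.1 u'.2))
    hu0' hu'.2
  have huW := mem_WM.1 u'.2
  have hvW := mem_WM.1 hv
  obtain ⟨t, ht1, ht2, ht3, -⟩ :=
    exists_torus_pair hF HP huW hvW hp (t := b⁻¹) (inv_ne_zero hb0)
  obtain ⟨D, hDd, hDi, hD⟩ := pairDil hF hp hr0
  let d : S 4 F q := ⟨⟨D, by rw [hDd, hrr, mul_inv_cancel₀ hr0]⟩, hDi⟩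
  have hdL : IsL q e f d 1 := by
    refine ⟨one_ne_zero, ?_, ?_⟩
    · show D *ᵥ e = _
      rw [hD, (hvW.swap hF).1, (huW.swap hF).1]; simp
    · show D *ᵥ f = _
      rw [hD, (hvW.swap hF).2, (huW.swap hF).2]; simp
  have hdu : mat d *ᵥ (u' : Fin 4 → F) = r • (u' : Fin 4 → F) := by
    show D *ᵥ _ = _
    rw [hD, hp.ef, hu'.2]; module
  have htL : IsL q e f t b⁻¹ := ⟨inv_ne_zero hb0, ht1, ht2⟩
  have hs := IsL.mul hF HP hdL (IsL.mul hF HP htL hs₀)
  refine ⟨_, _, hs, Subtype.ext ?_⟩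
  simp only [psiL]
  rw [mat_mul, mat_mul, ← mulVec_mulVec, ← mulVec_mulVec, hmove, ht3, mulVec_smul, hdu, smul_smul,
    smul_smul]
  conv_rhs => rw [← one_smul F (u' : Fin 4 → F)]
  congr 1
  have hbq : b ^ q ≠ 0 := pow_ne_zero _ hb0
  have ha := hs₀.1
  rw [inv_pow]
  field_simp at hb ⊢
  linear_combination hb

omit HP in
/-- The totally isotropic lines. -/
noncomputable def lines (q : ℕ) (F : Type u) [Field F] [Fintype F] : Finset (Set (Fin 4 → F)) :=
  ((validV q 4 F ×ˢ validV q 4 F).filter fun p => hm q p.2 p.1 = 0 ∧ ∀ l : F, p.2 ≠ l • p.1).image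
    fun p => {x | ∃ a b : F, x = a • p.1 + b • p.2}

omit HP in
theorem card_lineVec {u w : Fin 4 → F} (hu : u ≠ 0) (hw : ∀ l : F, w ≠ l • u) :
    Nat.card {x : Fin 4 → F | ∃ a b : F, x = a • u + b • w} = q ^ 4 := by
  have hinj : Function.Injective fun p : F × F => p.1 • u + p.2 • w := fun p p' h => by
    have hli := li_pair hF hu hw
    rw [LinearIndependent.pair_iff] at hli
    have h' := hli (p.1 - p'.1) (p.2 - p'.2) (by simp only at h; linear_combination (norm := module) h)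
    exact Prod.ext (sub_eq_zero.1 h'.1) (sub_eq_zero.1 h'.2)
  rw [show {x : Fin 4 → F | ∃ a b : F, x = a • u + b • w} =
      Set.range fun p : F × F => p.1 • u + p.2 • w by ext x; simp [eq_comm],
    Nat.card_range_of_injective hinj, Nat.card_prod, Nat.card_eq_fintype_card, hF]
  ring

omit HP in
theorem perp_count {v : Fin 4 → F} (hv : Valid q v) :
    ((validV q 4 F).filter fun u => hm q u v = 0 ∧ ∀ l : F, u ≠ l • v).card =
      (q ^ 2 - 1) * (q + 1) * q ^ 2 := by
  obtain ⟨w, -, hp⟩ := exists_partner_mem hF (ndeg_top hF) (U := ⊤) trivial hv.1 hv.2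
  rw [← N0_two hF, ← card_isoV hF hp (m := 2) rfl, ← hF, ← Finset.card_univ (α := F),
    ← Finset.card_product]
  symm
  refine Finset.card_bij (fun p _ => (p.1 : Fin 4 → F) + p.2 • v) (fun p hp' => ?_)
    (fun p _ p' _ h => ?_) (fun u hu => ?_)
  · obtain ⟨h0, hrr⟩ := mem_isoV.1 (Finset.mem_product.1 hp').1
    have hr := mem_WM.1 p.1.2
    have hne : ∀ l : F, (p.1 : Fin 4 → F) + p.2 • v ≠ l • v := fun l h => h0 (Subtype.ext (by
      have h1 : (p.1 : Fin 4 → F) = (l - p.2) • v := by linear_combination (norm := module) h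
      have h2 := congrArg (hm q · w) h1
      simp only [hr.2, hm_smul_left', hp.ef, mul_one] at h2
      rw [h1, ← h2, zero_smul]; rfl))
    refine Finset.mem_filter.2 ⟨mem_validV.2 ⟨fun h => hne 0 (by rw [h, zero_smul]), ?_⟩, ?_, hne⟩
    · simp [hm_add_left, hm_add_right hF, hm_smul_left', hm_smul_right, hrr, hr.1, (hr.swap hF).1,
        hp.ee]
    · simp [hm_add_left, hm_smul_left', hr.1, hp.ee]
  · have h1 := congrArg (hm q · w) h
    simp only [hm_add_left, hm_smul_left', (mem_WM.1 p.1.2).2, (mem_WM.1 p'.1.2).2, hp.ef,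
      mul_one, zero_add] at h1
    rw [h1] at h
    exact Prod.ext (Subtype.ext (add_right_cancel h)) h1
  · obtain ⟨hu, hue, hne⟩ := Finset.mem_filter.1 hu
    obtain ⟨hu0, huu⟩ := mem_validV.1 hu
    have hd := perp_e_decomp hF hp hue
    have hr := proj_mem hp u
    refine ⟨(⟨proj q v w u, hr⟩, hm q u w),
      Finset.mem_product.2 ⟨mem_isoV.2 ⟨fun h => ?_, ?_⟩, Finset.mem_univ _⟩, ?_⟩
    · refine hne (hm q u w) ?_
      conv_lhs => rw [hd, show proj q v w u = 0 from congrArg Subtype.val h, add_zero]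
    · rw [hd] at huu
      simpa [hm_add_left, hm_add_right hF, hm_smul_left', hm_smul_right, hr.1, (hr.swap hF).1,
        hp.ee] using huu
    · conv_rhs => rw [hd]
      exact add_comm _ _

omit HP in
theorem card_lines : (lines q F).card = (q + 1) * (q ^ 3 + 1) := by
  have hq := Herm.two_le_q hF
  set P := (validV q 4 F ×ˢ validV q 4 F).filter fun p => hm q p.2 p.1 = 0 ∧ ∀ l : F, p.2 ≠ l • p.1
  have hP : P.card = N0 q 4 * ((q ^ 2 - 1) * (q + 1) * q ^ 2) := by
    rw [← card_validV hF, ← smul_eq_mul, ← Finset.sum_const, Finset.card_filter, Finset.sum_product]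
    refine Finset.sum_congr rfl fun v hv => ?_
    rw [← Finset.card_filter]
    exact perp_count hF (mem_validV.1 hv)
  have hfib : ∀ A ∈ lines q F,
      (P.filter fun p => {x | ∃ a b : F, x = a • p.1 + b • p.2} = A).card =
        (q ^ 4 - 1) * (q ^ 4 - q ^ 2) := by
    intro A hA
    obtain ⟨⟨u, w⟩, hp, rfl⟩ := Finset.mem_image.1 hA
    obtain ⟨hpv, hperp, hne⟩ := Finset.mem_filter.1 hp
    obtain ⟨hu, hw⟩ := Finset.mem_product.1 hpv
    obtain ⟨hu0, huu⟩ := mem_validV.1 hu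
    obtain ⟨-, hww⟩ := mem_validV.1 hw
    set A := {x : Fin 4 → F | ∃ a b : F, x = a • u + b • w} with hAdef
    set Af := Finset.univ.filter fun x : Fin 4 → F => x ∈ A with hAf
    have hAc : Af.card = q ^ 4 := by
      rw [← card_lineVec hF hu0 hne, hAf, ← Fintype.card_subtype, ← Nat.card_eq_fintype_card]
    have hiso : ∀ x ∈ A, ∀ y ∈ A, hm q x y = 0 := by
      rintro _ ⟨a, b, rfl⟩ _ ⟨c, d, rfl⟩
      simp [hm_add_left, hm_add_right hF, hm_smul_left', hm_smul_right, huu, hww, hperp,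
        hm_comm_zero hF hperp]
    have hlin : ∀ x ∈ A, x ≠ 0 → ∀ y ∈ A, (∀ l : F, y ≠ l • x) →
        {z : Fin 4 → F | ∃ a b : F, z = a • x + b • y} = A := by
      intro x hx hx0 y hy hxy
      refine Set.Finite.eq_of_subset_of_card_le (Set.toFinite _) ?_ ?_
      · rintro _ ⟨a, b, rfl⟩
        obtain ⟨a1, b1, rfl⟩ := hx
        obtain ⟨a2, b2, rfl⟩ := hy
        exact ⟨a * a1 + b * a2, a * b1 + b * b2, by module⟩
      · rw [card_lineVec hF hx0 hxy, card_lineVec hF hu0 hne]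
    have e1 : (P.filter fun p => {x | ∃ a b : F, x = a • p.1 + b • p.2} = A) =
        ((Af.erase 0) ×ˢ Af).filter fun p => ∀ l : F, p.2 ≠ l • p.1 := by
      ext ⟨x, y⟩
      simp only [P, Finset.mem_filter, Finset.mem_product, mem_validV, Finset.mem_erase, hAf,
        Finset.mem_univ, true_and]
      constructor
      · rintro ⟨⟨⟨⟨hx0, -⟩, -, -⟩, -, hxy⟩, h⟩
        exact ⟨⟨⟨hx0, h ▸ ⟨1, 0, by simp⟩⟩, h ▸ ⟨0, 1, by simp⟩⟩, hxy⟩
      · rintro ⟨⟨⟨hx0, hx⟩, hy⟩, hxy⟩
        exact ⟨⟨⟨⟨hx0, hiso x hx x hx⟩, fun h => hxy 0 (by rw [h, zero_smul]), hiso y hy y hy⟩,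
          hiso y hy x hx, hxy⟩, hlin x hx hx0 y hy hxy⟩
    rw [e1, Finset.card_filter, Finset.sum_product, ← hAc,
      ← Finset.card_erase_of_mem (a := (0 : Fin 4 → F)) (Finset.mem_filter.2
        ⟨Finset.mem_univ _, ⟨0, 0, by simp⟩⟩),
      ← smul_eq_mul, ← Finset.sum_const]
    refine Finset.sum_congr rfl fun x hx => ?_
    obtain ⟨hx0, hx⟩ := Finset.mem_erase.1 hx
    rw [← Finset.card_filter, show (Af.filter fun y => ∀ l : F, y ≠ l • x) =
      Af \ Finset.univ.image (fun l : F => l • x) by ext y; simp [eq_comm],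
      Finset.card_sdiff_of_subset (by
        intro y hy
        obtain ⟨l, -, rfl⟩ := Finset.mem_image.1 hy
        obtain ⟨a, b, rfl⟩ := (Finset.mem_filter.1 hx).2
        exact Finset.mem_filter.2 ⟨Finset.mem_univ _, l * a, l * b, by module⟩),
      Finset.card_image_of_injective _ (smul_left_injective F hx0), Finset.card_univ, hF]
  have h := Finset.card_eq_sum_card_image (fun p : (Fin 4 → F) × (Fin 4 → F) =>
    {x | ∃ a b : F, x = a • p.1 + b • p.2}) P
  rw [show P.image _ = lines q F from rfl, Finset.sum_congr rfl hfib, Finset.sum_const,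
    smul_eq_mul, hP, N0_four hF] at h
  have hq4 : q ^ 4 - q ^ 2 = q ^ 2 * (q ^ 2 - 1) := by
    rw [Nat.mul_sub_one, ← pow_add]
  rw [hq4] at h
  refine Nat.eq_of_mul_eq_mul_right (m := (q ^ 4 - 1) * (q ^ 2 * (q ^ 2 - 1))) ?_ ?_
  · have h1 : 1 < q ^ 4 := Nat.one_lt_pow (by norm_num) (by omega)
    have h2 : 1 < q ^ 2 := Nat.one_lt_pow (by norm_num) (by omega)
    exact Nat.mul_pos (by omega) (Nat.mul_pos (by omega) (by omega))
  · rw [← h]; ring

omit HP in
/-- The stabiliser of an isotropic line. -/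
theorem exists_index_four : ∃ H : Subgroup (S 4 F q),
    Subgroup.center (S 4 F q) ≤ H ∧ H.index = (q + 1) * (q ^ 3 + 1) := by
  obtain ⟨e, f, HP⟩ := AutPSU.exists_pair hF (n := 4) (by norm_num)
  obtain ⟨u, hu, hu0, huu⟩ := exists_iso_mem hF (finrank_WM hF HP).2
    (by rw [finrank_W hF HP (m := 2) rfl])
  have huW := mem_WM.1 hu
  letI act : MulAction (S 4 F q) (Set (Fin 4 → F)) :=
    { smul := fun g A => (fun v => mat g *ᵥ v) '' A
      one_smul := fun A => by
        show (fun v => mat (1 : S 4 F q) *ᵥ v) '' A = A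
        simp [mat_one]
      mul_smul := fun g h A => by
        show (fun v => mat (g * h) *ᵥ v) '' A =
          (fun v => mat g *ᵥ v) '' ((fun v => mat h *ᵥ v) '' A)
        simp [Set.image_image, mulVec_mulVec, mat_mul] }
  have hact : ∀ (g : S 4 F q) (x y : Fin 4 → F),
      g • {z : Fin 4 → F | ∃ a b : F, z = a • x + b • y} =
        {z : Fin 4 → F | ∃ a b : F, z = a • (mat g *ᵥ x) + b • (mat g *ᵥ y)} := fun g x y => by
    show (fun v => mat g *ᵥ v) '' _ = _
    ext z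
    constructor
    · rintro ⟨_, ⟨a, b, rfl⟩, rfl⟩
      exact ⟨a, b, by simp only [mulVec_add, mulVec_smul]⟩
    · rintro ⟨a, b, rfl⟩
      exact ⟨_, ⟨a, b, rfl⟩, by simp only [mulVec_add, mulVec_smul]⟩
  set L := {z : Fin 4 → F | ∃ a b : F, z = a • e + b • u}
  refine ⟨MulAction.stabilizer (S 4 F q) L, fun g hg => ?_, ?_⟩
  · rw [MulAction.mem_stabilizer_iff, hact]
    obtain ⟨a, ha⟩ := Herm.scalar_of_mem_center_SU hF (by omega) hg
    have ha' : ∀ x, mat g *ᵥ x = a • x := fun x => by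
      rw [show mat g = a • 1 from ha, smul_mulVec, one_mulVec]
    have ha0 : a ≠ 0 := fun h => mulVec_ne_zero g HP.e_ne (by rw [ha', h, zero_smul])
    ext z
    simp only [ha', smul_smul, L, Set.mem_setOf_eq]
    constructor
    · rintro ⟨x, y, rfl⟩; exact ⟨x * a, y * a, rfl⟩
    · rintro ⟨x, y, rfl⟩
      exact ⟨x * a⁻¹, y * a⁻¹, by rw [inv_mul_cancel_right₀ ha0, inv_mul_cancel_right₀ ha0]⟩
  rw [MulAction.index_stabilizer, ← card_lines hF, ← Set.ncard_coe_finset]
  congr 1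
  ext A
  simp only [MulAction.mem_orbit_iff, lines, Finset.coe_image, Set.mem_image, Finset.mem_coe,
    Finset.mem_filter, Finset.mem_product, mem_validV]
  constructor
  · rintro ⟨g, rfl⟩
    refine ⟨(mat g *ᵥ e, mat g *ᵥ u), ⟨⟨⟨mulVec_ne_zero g HP.e_ne, by rw [iso, HP.ee]⟩,
      mulVec_ne_zero g hu0, by rw [iso, huu]⟩, by rw [iso, huW.1], fun l h => ?_⟩, (hact g e u).symm⟩
    rw [← mulVec_smul] at h
    have h1 := congrArg (hm q · f) (mulVec_injective g h)
    simp only [huW.2, hm_smul_left', HP.ef, mul_one] at h1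
    rw [← h1, zero_smul, mulVec_zero] at h
    exact mulVec_ne_zero g hu0 h
  · rintro ⟨⟨x, y⟩, ⟨⟨hx, hy⟩, hxy, hne⟩, rfl⟩
    obtain ⟨g, c, hc, hg⟩ := transitive hF HP (by norm_num) (v := x) hx
    set y' := mat g⁻¹ *ᵥ y
    have hy' : mat g *ᵥ y' = y := by
      rw [mulVec_mulVec, ← mat_mul, mul_inv_cancel, mat_one, one_mulVec]
    have hye : hm q y' e = 0 := by
      rw [← iso g, hy', hg, hm_smul_right, hxy, mul_zero]
    have hd := perp_e_decomp hF HP hye
    have hr := proj_mem HP y'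
    set r := proj q e f y'
    set α := hm q y' f
    have hr0 : r ≠ 0 := fun h => hne (α * c) (by
      rw [← hy', hd, h, add_zero, mulVec_smul, hg, smul_smul])
    have hrr : hm q r r = 0 := by
      have h1 : hm q y' y' = 0 := by rw [← iso g, hy', hy.2]
      rw [hd] at h1
      simpa [hm_add_left, hm_add_right hF, hm_smul_left', hm_smul_right, hr.1, (hr.swap hF).1,
        HP.ee] using h1
    obtain ⟨s, a, hs, hsu⟩ := move_iso hF HP huW hu0 huu hr hr0 hrr
    refine ⟨g * s, ?_⟩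
    rw [hact, mat_mul, ← mulVec_mulVec, ← mulVec_mulVec, hs.2.1, hsu, mulVec_smul, hg, smul_smul]
    have hy2 : y = (α * c) • x + mat g *ᵥ r := by
      rw [← hy', hd, mulVec_add, mulVec_smul, hg, smul_smul]
    ext z
    simp only [Set.mem_setOf_eq]
    constructor
    · rintro ⟨p, p', rfl⟩
      exact ⟨p * (a * c) - p' * (α * c), p', by rw [hy2]; module⟩
    · rintro ⟨p, p', rfl⟩
      refine ⟨(p + p' * (α * c)) * (a * c)⁻¹, p', ?_⟩
      rw [hy2, smul_smul, inv_mul_cancel_right₀ (mul_ne_zero hs.1 hc)]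
      module

end Cfsg.Agent.Lib.MinIndexSU4
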