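import Cfsg.Agent.Lib.MinIndexSU4.Count

/-!
With two or three real scalars an element of order five contradicts freeness.
-/

set_option autoImplicit false

namespace Cfsg.Agent.Lib.MinIndexSU4

open Matrix Module Cfsg.Agent.Lib.Forms Cfsg.Agent.Lib.Classical Cfsg.Agent.Lib.AutPSU
open Cfsg.Agent.Lib.MinIndexSU

universe u v

attribute [local instance] _root_.Classical.propDecidable

variable {F : Type u} [Field F] [Fintype F] {q : ℕ}
variable (hF : Fintype.card F = q ^ 2)

/-- The pointwise stabiliser of two vectors. -/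
def fixLine (e w : Fin 4 → F) : Subgroup (S 4 F q) where
  carrier := {s | mat s *ᵥ e = e ∧ mat s *ᵥ w = w}
  one_mem' := ⟨by rw [mat_one, one_mulVec], by rw [mat_one, one_mulVec]⟩
  mul_mem' := by
    rintro s t ⟨hs, hs'⟩ ⟨ht, ht'⟩
    exact ⟨by rw [mat_mul, ← mulVec_mulVec, ht, hs], by rw [mat_mul, ← mulVec_mulVec, ht', hs']⟩
  inv_mem' := by
    rintro s ⟨hs, hs'⟩
    exact ⟨by nth_rw 1 [← hs]; exact mulVec_inv_cancel s e,
      by nth_rw 1 [← hs']; exact mulVec_inv_cancel s w⟩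

omit [Fintype F] in
theorem mem_fixLine {e w : Fin 4 → F} {s : S 4 F q} :
    s ∈ fixLine e w ↔ mat s *ᵥ e = e ∧ mat s *ᵥ w = w := Iff.rfl

include hF

variable {e f w w' : Fin 4 → F} (HP : Pair q e f) (hw : InW q e f w) (hw' : InW q e f w')
  (hp : Pair q w w')
include HP hw hw' hp

theorem span4 (z : Fin 4 → F) :
    z = hm q z f • e + hm q z e • f + hm q z w' • w + hm q z w • w' := by
  obtain ⟨hd, hnd⟩ := finrank_WM hF HP
  obtain ⟨h2, -⟩ := pair_perp hF hnd (mem_WM.2 hw) (mem_WM.2 hw') hp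
  set x := z - (hm q z f • e + hm q z e • f + hm q z w' • w + hm q z w • w')
  have hx : x ∈ WM q e f ⊓ WM q w w' := by
    refine Submodule.mem_inf.2 ⟨⟨?_, ?_⟩, ⟨?_, ?_⟩⟩ <;>
      simp [x, hm_sub_left, hm_add_left, hm_smul_left', HP.ee, HP.ff, HP.ef, HP.fe, hp.ee, hp.ff,
        hp.ef, hp.fe, hw.1, hw.2, hw'.1, hw'.2, (hw.swap hF).1, (hw.swap hF).2, (hw'.swap hF).1,
        (hw'.swap hF).2]
  have h0 : WM q e f ⊓ WM q w w' = ⊥ := Submodule.finrank_eq_zero.1 (by omega)
  rw [h0, Submodule.mem_bot, sub_eq_zero] at hx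
  exact hx

theorem ext4 {s t : S 4 F q} (h1 : mat s *ᵥ e = mat t *ᵥ e) (h2 : mat s *ᵥ f = mat t *ᵥ f)
    (h3 : mat s *ᵥ w = mat t *ᵥ w) (h4 : mat s *ᵥ w' = mat t *ᵥ w') : s = t := by
  refine vec_ext fun z => ?_
  rw [span4 hF HP hw hw' hp z]
  simp only [mulVec_add, mulVec_smul, h1, h2, h3, h4]

theorem fixLine_apply {s : S 4 F q} (hs : s ∈ fixLine e w) :
    ∃ μ a b : F, Skew q a ∧ Skew q b ∧ mat s *ᵥ f = f + μ • w + a • e ∧
      mat s *ᵥ w' = w' + b • w - μ ^ q • e := by
  obtain ⟨hse, hsw⟩ := hs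
  have he : ∀ z, hm q (mat s *ᵥ z) e = hm q z e := fun z => by
    nth_rw 1 [← hse]; exact iso s z e
  have hw1 : ∀ z, hm q (mat s *ᵥ z) w = hm q z w := fun z => by
    nth_rw 1 [← hsw]; exact iso s z w
  have hf := span4 hF HP hw hw' hp (mat s *ᵥ f)
  have hv := span4 hF HP hw hw' hp (mat s *ᵥ w')
  rw [he, hw1, HP.fe, (hw.swap hF).2] at hf
  rw [he, hw1, hw'.1, hp.fe] at hv
  set μ := hm q (mat s *ᵥ f) w'
  set a := hm q (mat s *ᵥ f) f
  set lam := hm q (mat s *ᵥ w') f
  set b := hm q (mat s *ᵥ w') w'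
  have h11 := iso s f f
  have h22 := iso s w' w'
  have h12 := iso s f w'
  rw [hf] at h11 h12
  rw [hv] at h22 h12
  simp only [hm_add_left, hm_add_right hF, hm_smul_left', hm_smul_right, HP.ee, HP.ff, HP.ef,
    HP.fe, hp.ee, hp.ff, hp.ef, hp.fe, hw.1, hw.2, hw'.1, hw'.2, (hw.swap hF).1, (hw.swap hF).2,
    (hw'.swap hF).1, (hw'.swap hF).2, one_pow, Herm.conj_zero hF, mul_zero, mul_one, zero_mul,
    one_mul, zero_add, add_zero] at h11 h22 h12
  have hlam : lam = -μ ^ q := by
    have h := congrArg (fun x : F => x ^ q) (show lam ^ q = -μ by linear_combination h12)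
    simp only [Herm.conj_conj hF, Herm.conj_neg hF] at h
    exact h
  refine ⟨μ, a, b, by unfold Skew; linear_combination h11, by unfold Skew; linear_combination h22,
    ?_, ?_⟩
  · rw [hf]; module
  · rw [hv, hlam]; module

theorem card_fixLine : Nat.card (fixLine (q := q) e w) = q ^ 4 := by
  have happ : ∀ (μ : F) {a b : F}, Skew q a → Skew q b →
      let s := AutPSU.U hF e (μ • w) a * T hF w b
      s ∈ fixLine e w ∧ mat s *ᵥ f = f + μ • w + a • e ∧ mat s *ᵥ w' = w' + b • w - μ ^ q • e := by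
    intro μ a b ha hb s
    have hx : InW q e f (μ • w) := hw.smul μ
    have hc : Cond q (μ • w) a := by
      unfold Cond; rw [hm_smul_left', hm_smul_right, hp.ee, mul_zero, mul_zero, neg_zero]; exact ha
    refine ⟨⟨?_, ?_⟩, ?_, ?_⟩ <;>
      simp only [s, mat_mul, ← mulVec_mulVec, T_mulVec hF hp.ee hb, hp.ee, hp.fe,
        (hw.swap hF).1, (hw.swap hF).2, mul_zero, mul_one, zero_smul, add_zero]
    · exact U_apply_e hF HP hx hc
    · rw [U_apply_w hF HP hx hc hw, hm_smul_right, hp.ee, mul_zero, zero_smul, sub_zero]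
    · exact U_apply_f hF HP hx hc
    · rw [mulVec_add, mulVec_smul, U_apply_w hF HP hx hc hw, U_apply_w hF HP hx hc hw',
        hm_smul_right, hm_smul_right, hp.ee, hp.fe]
      module
  have hc : Nat.card (fixLine (q := q) e w) =
      Nat.card (F × {a : F // Skew q a} × {b : F // Skew q b}) := by
    symm
    refine Nat.card_congr (Equiv.ofBijective (fun p => (⟨_, (happ p.1 p.2.1.2 p.2.2.2).1⟩ :
      fixLine (q := q) e w)) ⟨?_, ?_⟩)
    · rintro ⟨μ, ⟨a, ha⟩, ⟨b, hb⟩⟩ ⟨μ₂, ⟨a₂, ha₂⟩, ⟨b₂, hb₂⟩⟩ h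
      have h' := congrArg Subtype.val h
      simp only at h'
      have hf := congrArg (fun s : S 4 F q => mat s *ᵥ f) h'
      have hv := congrArg (fun s : S 4 F q => mat s *ᵥ w') h'
      simp only [(happ μ ha hb).2.1, (happ μ₂ ha₂ hb₂).2.1] at hf
      simp only [(happ μ ha hb).2.2, (happ μ₂ ha₂ hb₂).2.2] at hv
      have c1 := congrArg (fun z => hm q z w') hf
      have c2 := congrArg (fun z => hm q z f) hf
      have c3 := congrArg (fun z => hm q z w') hv
      simp only [hm_sub_left, hm_add_left, hm_smul_left', HP.ff, HP.ef, hp.ff, hp.ef, hw.2,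
        (hw'.swap hF).1, (hw'.swap hF).2, mul_zero, mul_one, zero_add, add_zero, sub_zero]
        at c1 c2 c3
      subst c1 c2 c3
      rfl
    · rintro ⟨s, hs⟩
      obtain ⟨μ, a, b, ha, hb, hsf, hsv⟩ := fixLine_apply hF HP hw hw' hp hs
      obtain ⟨⟨he, hww⟩, hf, hv⟩ := happ μ ha hb
      exact ⟨(μ, ⟨a, ha⟩, ⟨b, hb⟩), Subtype.ext (ext4 hF HP hw hw' hp (he.trans hs.1.symm)
        (hf.trans hsf.symm) (hww.trans hs.2.symm) (hv.trans hsv.symm))⟩
  rw [hc, Nat.card_prod, Nat.card_prod, exists_skew_set hF, Nat.card_eq_fintype_card, hF]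
  ring

/-- An element of order five normalising the stabiliser. -/
theorem exists_five {τ : F} (hτ : τ * τ + τ = 1) (hτq : τ ^ q ≠ τ) : ∃ g : S 4 F q,
    g ^ 5 = 1 ∧ (∀ s ∈ fixLine e w, g * s * g⁻¹ ∈ fixLine e w) ∧
      ∀ s ∈ fixLine e w, g * s = s * g → s = 1 := by
  have hR : ∀ b : F, ∃ r : S 4 F q, mat r *ᵥ e = e ∧ mat r *ᵥ w = w + b • e ∧
      mat r *ᵥ f = f - b ^ q • w' ∧ mat r *ᵥ w' = w' := fun b => by
    have hx : InW q e f ((-b ^ q) • w') := hw'.smul _
    have hc : Cond q ((-b ^ q) • w') 0 := by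
      unfold Cond
      rw [hm_smul_left', hm_smul_right, hp.ff, mul_zero, mul_zero, neg_zero, Herm.conj_zero hF,
        add_zero]
    refine ⟨_, U_apply_e hF HP hx hc, ?_, ?_, ?_⟩
    · rw [U_apply_w hF HP hx hc hw, hm_smul_right, hp.ef, Herm.conj_neg hF, Herm.conj_conj hF]
      module
    · rw [U_apply_f hF HP hx hc]; module
    · rw [U_apply_w hF HP hx hc hw', hm_smul_right, hp.ff, mul_zero, zero_smul, sub_zero]
  obtain ⟨l, hle, hlw, hlf, hlv⟩ : ∃ l : S 4 F q, mat l *ᵥ e = e + w ∧ mat l *ᵥ w = w ∧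
      mat l *ᵥ f = f ∧ mat l *ᵥ w' = w' - f := by
    have hx : InW q w w' ((-1 : F) • f) :=
      InW.smul _ ⟨(hw.swap hF).2, (hw'.swap hF).2⟩
    have he : InW q w w' e := ⟨(hw.swap hF).1, (hw'.swap hF).1⟩
    have hf' : InW q w w' f := ⟨(hw.swap hF).2, (hw'.swap hF).2⟩
    have hc : Cond q ((-1 : F) • f) 0 := by
      unfold Cond
      rw [hm_smul_left', hm_smul_right, HP.ff, mul_zero, mul_zero, neg_zero, Herm.conj_zero hF,
        add_zero]
    refine ⟨_, ?_, U_apply_e hF hp hx hc, ?_, ?_⟩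
    · rw [U_apply_w hF hp hx hc he, hm_smul_right, HP.ef, Herm.conj_neg hF, one_pow]
      module
    · rw [U_apply_w hF hp hx hc hf', hm_smul_right, HP.ff, mul_zero, zero_smul, sub_zero]
    · rw [U_apply_f hF hp hx hc]; module
  obtain ⟨r, hre, hrw, hrf, hrv⟩ := hR (τ - 1)
  obtain ⟨m, hme, hmw, hmf, hmv⟩ := hR (-1)
  set g := m * l * r
  have hge : mat g *ᵥ e = w := by
    simp only [g, mat_mul, ← mulVec_mulVec, hre, hle, mulVec_add, hme, hmw]; module
  have hgw : mat g *ᵥ w = -e + τ • w := by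
    simp only [g, mat_mul, ← mulVec_mulVec, hrw, mulVec_add, mulVec_smul, hle, hlw, hme, hmw]
    module
  have hgf : mat g *ᵥ f = τ ^ q • f + w' := by
    simp only [g, mat_mul, ← mulVec_mulVec, hrf, mulVec_sub, mulVec_smul, hlf, hlv, hmf, hmv,
      Herm.conj_sub hF, Herm.conj_neg hF, one_pow]
    module
  have hgv : mat g *ᵥ w' = -f := by
    simp only [g, mat_mul, ← mulVec_mulVec, hrv, hlv, mulVec_sub, hmf, hmv, Herm.conj_neg hF,
      one_pow]
    module
  have hτ' : τ ^ q * τ ^ q + τ ^ q = 1 := by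
    have h := congrArg (fun x : F => x ^ q) hτ
    simpa only [Herm.conj_add hF, mul_pow, one_pow] using h
  have h5 : g ^ 5 = 1 := by
    refine ext4 hF HP hw hw' hp ?_ ?_ ?_ ?_ <;>
      simp only [show (5 : ℕ) = 1 + 1 + 1 + 1 + 1 from rfl, pow_add, pow_one, mat_mul, mat_one,
        one_mulVec, ← mulVec_mulVec, mulVec_add, mulVec_smul, mulVec_neg, hge, hgw, hgf, hgv] <;>
      match_scalars
    all_goals first
      | (ring; done)
      | linear_combination (-(τ - 1)) * hτ
      | linear_combination (τ * τ * τ - τ * τ - 2 * τ + 1) * hτ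
      | linear_combination (-(τ * τ - τ - 1)) * hτ
      | linear_combination (-(τ ^ q - 1)) * hτ'
      | linear_combination (τ ^ q * τ ^ q * τ ^ q - τ ^ q * τ ^ q - 2 * τ ^ q + 1) * hτ'
      | linear_combination (-(τ ^ q * τ ^ q - τ ^ q - 1)) * hτ'
      | linear_combination (τ - 1) * hτ
      | linear_combination (τ * τ - τ - 1) * hτ
      | linear_combination (τ ^ q - 1) * hτ'
      | linear_combination (τ ^ q * τ ^ q - τ ^ q - 1) * hτ'
  refine ⟨g, h5, fun s hs => ?_, fun s hs hcomm => ?_⟩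
  · have hie : mat g⁻¹ *ᵥ w = e := by rw [← hge, mulVec_inv_cancel]
    have hiw : mat g⁻¹ *ᵥ e = τ • e - w := by
      have h := mulVec_inv_cancel g (τ • e - w)
      rw [mulVec_sub, mulVec_smul, hge, hgw] at h
      rwa [show τ • w - (-e + τ • w) = e by module] at h
    obtain ⟨hse, hsw⟩ := hs
    constructor <;>
      simp only [mat_mul, ← mulVec_mulVec, hie, hiw, mulVec_sub, mulVec_smul, hse, hsw, hge, hgw]
    module
  obtain ⟨μ, a, b, -, -, hsf, hsv⟩ := fixLine_apply hF HP hw hw' hp hs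
  obtain ⟨hse, hsw⟩ := hs
  have hcf := congrArg (fun t : S 4 F q => mat t *ᵥ f) hcomm
  have hcv := congrArg (fun t : S 4 F q => mat t *ᵥ w') hcomm
  simp only [mat_mul, ← mulVec_mulVec, hsf, hsv, hgf, hgv, mulVec_add, mulVec_sub, mulVec_smul,
    mulVec_neg, hge, hgw, hse, hsw] at hcf hcv
  have c1 := congrArg (fun z => hm q z w') hcf
  have c2 := congrArg (fun z => hm q z f) hcf
  have c3 := congrArg (fun z => hm q z f) hcv
  simp only [hm_sub_left, hm_add_left, hm_smul_left', AutPSU.hm_neg_left, HP.ff, HP.ef, hp.ff,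
    hp.ef, hw.2, hw'.2, (hw'.swap hF).1, (hw'.swap hF).2, mul_zero, mul_one, zero_add, add_zero,
    sub_zero, zero_sub, neg_zero] at c1 c2 c3
  have hμ : μ = 0 := by
    have h : (τ - τ ^ q) * μ = 0 := by linear_combination c1 - c3
    exact (mul_eq_zero.1 h).resolve_left (sub_ne_zero.2 (Ne.symm hτq))
  have hτ0 : τ ^ q ≠ 0 := fun h => one_ne_zero (by linear_combination -hτ' + (τ ^ q + 1) * h)
  have ha : a = 0 := by
    have h : τ ^ q * a = 0 := by
      rw [hμ, Herm.conj_zero hF] at c2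
      linear_combination -c2
    exact (mul_eq_zero.1 h).resolve_left hτ0
  have hb : b = 0 := by
    have h : b = a := by linear_combination -c3
    rw [h, ha]
  refine ext4 hF HP hw hw' hp ?_ ?_ ?_ ?_ <;>
    simp [mat_one, hse, hsw, hsf, hsv, hμ, ha, hb, Herm.conj_zero hF]

omit HP hw hw' hp

variable {Ω : Type v} [MulAction (S 4 F q) Ω] [Fintype Ω]

/-- No action is free everywhere. -/
theorem false_of_small (h3 : q ≤ 3) (hall : ∀ (x : Fin 4 → F), Valid q x → ∀ y : Ω, Free hF x y)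
    (hM : Fintype.card Ω = q ^ 4 + q ^ 3) : False := by
  have hq := Herm.two_le_q hF
  obtain ⟨τ, hτ, hτq⟩ : ∃ τ : F, τ * τ + τ = 1 ∧ τ ^ q ≠ τ := by
    rcases (show q = 2 ∨ q = 3 by omega) with rfl | rfl
    · have h20 := two_eq_zero hF rfl
      obtain ⟨τ, hτ⟩ := Finset.exists_mem_notMem_of_card_lt_card
        (s := ({0, 1} : Finset F)) (t := Finset.univ)
        (by rw [Finset.card_univ, hF]; exact Finset.card_le_two.trans_lt (by norm_num))
      simp only [Finset.mem_insert, Finset.mem_singleton, not_or] at hτ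
      obtain ⟨-, h0, h1⟩ := hτ
      have h4 := FiniteField.pow_card τ
      rw [hF] at h4
      have h : τ * τ + τ + 1 = 0 := by
        have e : τ * ((τ - 1) * (τ * τ + τ + 1)) = 0 := by norm_num at h4; linear_combination h4
        exact (mul_eq_zero.1 ((mul_eq_zero.1 e).resolve_left h0)).resolve_left (sub_ne_zero.2 h1)
      exact ⟨τ, by linear_combination h - h20, fun e => one_ne_zero (show (1 : F) = 0 by
        linear_combination h - e - τ * h20)⟩
    · haveI : Fact (Nat.Prime 3) := ⟨Nat.prime_three⟩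
      haveI := charP_of_card_eq_prime_pow (p := 3) hF
      have h30 : (3 : F) = 0 := by simpa using CharP.cast_eq_zero F 3
      obtain ⟨i, hi⟩ := FiniteField.isSquare_neg_one_iff (F := F) |>.2 (by rw [hF]; norm_num)
      refine ⟨i + 1, by linear_combination -hi + i * h30, fun e => ?_⟩
      have h : i * i * i = i := by linear_combination e - (i * i + i) * h30
      have h1 : i * 2 = 0 := by linear_combination -h - i * hi
      have h2 : i = 0 := by linear_combination i * h30 - h1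
      exact one_ne_zero (show (1 : F) = 0 by linear_combination -hi - i * h2)
  obtain ⟨p, hp, rfl⟩ : ∃ p, Nat.Prime p ∧ q = p :=
    ⟨q, by rcases (show q = 2 ∨ q = 3 by omega) with rfl | rfl <;> norm_num, rfl⟩
  obtain ⟨e, f, HP⟩ := AutPSU.exists_pair hF (n := 4) (by norm_num)
  obtain ⟨w, w', hw, hw', hpw⟩ := exists_W_pair hF HP le_rfl
  obtain ⟨g, h5, hnorm, hcent⟩ := exists_five hF HP hw hw' hpw hτ hτq
  haveI : Fact (Nat.Prime 5) := ⟨by norm_num⟩
  haveI := Fintype.ofFinite (fixLine (q := q) e w)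
  set P := fixLine (q := q) e w with hP
  have hPc : Nat.card P = q ^ 4 := card_fixLine hF HP hw hw' hpw
  set N := Finset.univ.filter fun y : Ω => ∃ s ∈ P, s ≠ 1 ∧ s • y = y with hNdef
  have hmaps : ∀ y ∈ N, g • y ∈ N := fun y hy => by
    obtain ⟨s, hs, hs1, hsy⟩ := (Finset.mem_filter.1 hy).2
    refine Finset.mem_filter.2 ⟨Finset.mem_univ _, _, hnorm s hs, fun h => hs1 ?_, ?_⟩
    · exact conj_eq_one_iff.1 h
    · rw [mul_smul, mul_smul, inv_smul_smul, hsy]
  have hnofix : ∀ y ∈ N, g • y ≠ y := by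
    intro y hy hgy
    obtain ⟨s, hs, hs1, hsy⟩ := (Finset.mem_filter.1 hy).2
    set R := P ⊓ MulAction.stabilizer (S 4 F q) y with hR
    have hmem : ∀ t : R, g * (t : S 4 F q) * g⁻¹ ∈ R := fun t => by
      obtain ⟨h1, h2⟩ := Subgroup.mem_inf.1 t.2
      refine Subgroup.mem_inf.2 ⟨hnorm _ h1, ?_⟩
      rw [MulAction.mem_stabilizer_iff] at h2 ⊢
      rw [mul_smul, mul_smul, inv_smul_eq_iff.2 hgy.symm, h2, hgy]
    haveI := Fintype.ofFinite R
    let σ : Equiv.Perm R := Equiv.ofBijective (fun t => (⟨_, hmem t⟩ : R))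
      (Finite.injective_iff_bijective.1 fun t t' h =>
        Subtype.ext (by simpa using congrArg Subtype.val h))
    have hpow : ∀ (n : ℕ) (t : R), (((σ ^ n) t : R) : S 4 F q) = g ^ n * t * (g ^ n)⁻¹ := by
      intro n
      induction n with
      | zero => intro t; simp
      | succ n ih =>
        intro t
        rw [pow_succ', Equiv.Perm.mul_apply]
        show g * (((σ ^ n) t : R) : S 4 F q) * g⁻¹ = _
        rw [ih, pow_succ', _root_.mul_inv_rev]
        group
    have hσ : σ ^ 5 ^ 1 = 1 := Equiv.ext fun t => Subtype.ext (by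
      rw [pow_one, hpow, h5]; simp)
    have hsupp : σ.supportᶜ = {1} := by
      ext t
      simp only [Finset.mem_compl, Equiv.Perm.mem_support, not_not, Finset.mem_singleton]
      refine ⟨fun h => Subtype.ext (hcent _ (Subgroup.mem_inf.1 t.2).1 ?_), fun h => ?_⟩
      · have := congrArg Subtype.val h
        exact mul_inv_eq_iff_eq_mul.1 this
      · subst h; exact Subtype.ext (by simp [σ])
    have hmod := Equiv.Perm.card_compl_support_modEq hσ
    rw [hsupp, Finset.card_singleton, ← Nat.card_eq_fintype_card] at hmod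
    have hdvd : Nat.card R ∣ q ^ 4 := hPc ▸ Subgroup.card_dvd_of_le inf_le_left
    obtain ⟨i, hi, hi'⟩ := (Nat.dvd_prime_pow hp).1 hdvd
    rw [hi'] at hmod
    unfold Nat.ModEq at hmod
    have hi4 : i = 0 ∨ i = 4 := by
      rcases (show q = 2 ∨ q = 3 by omega) with rfl | rfl <;> interval_cases i <;>
        simp at hmod ⊢
    rcases hi4 with rfl | rfl
    · rw [pow_zero, Subgroup.card_eq_one] at hi'
      exact hs1 (by
        have : s ∈ R := Subgroup.mem_inf.2 ⟨hs, hsy⟩
        rwa [hi', Subgroup.mem_bot] at this)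
    · have heq : R = P := Subgroup.eq_of_le_of_card_ge inf_le_left (by rw [hi', hPc])
      obtain ⟨κ, hκ0, hκ⟩ := exists_skew_ne_zero hF
      have hT : T hF e κ ∈ P := ⟨by rw [T_mulVec hF HP.ee hκ, HP.ee]; simp,
        by rw [T_mulVec hF HP.ee hκ, hw.1]; simp⟩
      rw [← heq] at hT
      exact hκ0 (hall e HP.valid_e y κ hκ (Subgroup.mem_inf.1 hT).2)
  have hN5 : 5 ∣ N.card := by
    let σ : Equiv.Perm N := Equiv.ofBijective (fun y => (⟨_, hmaps y.1 y.2⟩ : N))
      (Finite.injective_iff_bijective.1 fun y y' h =>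
        Subtype.ext (by simpa using congrArg Subtype.val h))
    have hpow : ∀ (n : ℕ) (y : N), (((σ ^ n) y : N) : Ω) = g ^ n • (y : Ω) := by
      intro n
      induction n with
      | zero => intro y; simp
      | succ n ih =>
        intro y
        rw [pow_succ', Equiv.Perm.mul_apply]
        show g • (((σ ^ n) y : N) : Ω) = _
        rw [ih, pow_succ', mul_smul]
    have hσ : σ ^ 5 ^ 1 = 1 := Equiv.ext fun y => Subtype.ext (by
      rw [pow_one, hpow, h5]; simp)
    have hsupp : σ.supportᶜ = ∅ := Finset.eq_empty_iff_forall_notMem.2 fun y hy => by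
      simp only [Finset.mem_compl, Equiv.Perm.mem_support, not_not] at hy
      exact hnofix y.1 y.2 (congrArg Subtype.val hy)
    have hmod := Equiv.Perm.card_compl_support_modEq hσ
    rw [hsupp, Finset.card_empty, Fintype.card_coe] at hmod
    exact Nat.modEq_zero_iff_dvd.1 hmod.symm
  have hfree : q ^ 4 ∣ Nᶜ.card := by
    rw [Finset.card_eq_sum_card_image fun y => Finset.univ.image fun s : P => s • y]
    refine Finset.dvd_sum fun A hA => ?_
    obtain ⟨y, hy, rfl⟩ := Finset.mem_image.1 hA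
    have hy' : ∀ s ∈ P, s • y = y → s = 1 := fun s hs h => by
      by_contra h1
      exact Finset.mem_compl.1 hy (Finset.mem_filter.2 ⟨Finset.mem_univ _, s, hs, h1, h⟩)
    have hinj : Function.Injective fun s : P => s • y := fun s t h => by
      have hst : s • y = t • y := h
      have h' : (t⁻¹ * s : P) • y = y := by rw [mul_smul, hst, inv_smul_smul]
      have := hy' _ (t⁻¹ * s : P).2 h'
      exact (inv_mul_eq_one.1 (Subtype.ext this : t⁻¹ * s = 1)).symm
    rw [← hPc, Nat.card_eq_fintype_card, ← Finset.card_univ,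
      ← Finset.card_image_of_injective _ hinj]
    refine dvd_of_eq (congrArg Finset.card (Finset.ext fun z => ?_))
    constructor
    · intro hz
      obtain ⟨s, -, rfl⟩ := Finset.mem_image.1 hz
      refine Finset.mem_filter.2 ⟨Finset.mem_compl.2 fun hN => ?_, ?_⟩
      · obtain ⟨t, ht, ht1, htz⟩ := (Finset.mem_filter.1 hN).2
        refine ht1 ?_
        have h := hy' _ (P.mul_mem (P.mul_mem (P.inv_mem s.2) ht) s.2)
          (by rw [mul_smul, mul_smul, ← Subgroup.smul_def, htz, Subgroup.smul_def, inv_smul_smul])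
        calc t = (s : S 4 F q) * ((s : S 4 F q)⁻¹ * t * s) * (s : S 4 F q)⁻¹ := by group
          _ = 1 := by rw [h]; group
      · ext x
        simp only [Finset.mem_image, Finset.mem_univ, true_and]
        exact ⟨fun ⟨r, hr⟩ => ⟨r * s, by rw [mul_smul, hr]⟩,
          fun ⟨r, hr⟩ => ⟨r * s⁻¹, by rw [mul_smul, inv_smul_smul, hr]⟩⟩
    · intro hz
      obtain ⟨-, hz⟩ := Finset.mem_filter.1 hz
      rw [← hz]
      exact Finset.mem_image.2 ⟨1, Finset.mem_univ _, one_smul _ _⟩
  have hsum := Finset.card_add_card_compl N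
  rw [hM] at hsum
  obtain ⟨a, ha⟩ := hN5
  obtain ⟨b, hb⟩ := hfree
  rw [ha, hb] at hsum
  rcases (show q = 2 ∨ q = 3 by omega) with rfl | rfl <;> omega

end Cfsg.Agent.Lib.MinIndexSU4
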