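import Cfsg.Agent.Lib.MinIndexSU4.Torus
import Cfsg.Agent.Lib.MinIndexSU4.Quintet

/-!
The minimal index of a proper subgroup of the four-dimensional projective unitary groups.
-/

set_option autoImplicit false

namespace Cfsg.Agent.Lib.MinIndexSU4

open Matrix Module Cfsg.Agent.Lib.Forms Cfsg.Agent.Lib.Classical Cfsg.Agent.Lib.AutPSU
open Cfsg.Agent.Lib.MinIndexSU

universe u v

attribute [local instance] _root_.Classical.propDecidable

variable {F : Type u} [Field F] [Fintype F] {q : ℕ}
variable (hF : Fintype.card F = q ^ 2)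
include hF

/-- A transitive action has at least as many points as there are isotropic lines. -/
theorem card_bound {Ω : Type v} [MulAction (S 4 F q) Ω] [Fintype Ω]
    [MulAction.IsPretransitive (S 4 F q) Ω] (h2 : 2 ≤ Fintype.card Ω) :
    (q + 1) * (q ^ 3 + 1) ≤ Fintype.card Ω := by
  by_contra h
  obtain ⟨hall, hM⟩ := all_free hF h2 (not_le.1 h)
  rcases le_or_gt q 3 with h3 | h4
  · exact false_of_small hF h3 hall hM
  · haveI : Nonempty Ω := Fintype.card_pos_iff.1 (by omega)
    exact false_of_large hF h4 hall hM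

/-- The minimal index. -/
theorem min_index_four :
    (∀ H : Subgroup (Cfsg.PSU 4 F q), H ≠ ⊤ → (q + 1) * (q ^ 3 + 1) ≤ H.index) ∧
      ∃ H : Subgroup (Cfsg.PSU 4 F q), H.index = (q + 1) * (q ^ 3 + 1) := by
  have hs := pr_surjective (n := 4) (F := F) (q := q)
  refine ⟨fun H hH => ?_, ?_⟩
  · rw [← H.index_comap_of_surjective hs, Subgroup.index_eq_card]
    set K := H.comap pr with hK
    haveI : Fintype (S 4 F q ⧸ K) := Fintype.ofFinite _
    have hK1 : K ≠ ⊤ := fun e => hH (Subgroup.comap_injective hs (by rw [Subgroup.comap_top]; exact e))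
    have h0 : K.index ≠ 1 := fun e => hK1 (Subgroup.index_eq_one.1 e)
    have h1 := Fintype.card_pos (α := S 4 F q ⧸ K)
    rw [Subgroup.index_eq_card, Nat.card_eq_fintype_card] at h0
    rw [Nat.card_eq_fintype_card]
    exact card_bound hF (by omega)
  · obtain ⟨H, hle, hH⟩ := exists_index_four hF
    refine ⟨H.map pr, ?_⟩
    rw [← hH]
    refine Subgroup.index_map_eq _ hs ?_
    rw [QuotientGroup.ker_mk']
    exact hle

end Cfsg.Agent.Lib.MinIndexSU4
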