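import Cfsg.Agent.Lib.MinIndexSU4.Count

/-!
With at least four real scalars a torus contradicts freeness.
-/

set_option autoImplicit false

namespace Cfsg.Agent.Lib.MinIndexSU4

open Matrix Module Cfsg.Agent.Lib.Forms Cfsg.Agent.Lib.Classical Cfsg.Agent.Lib.AutPSU
open Cfsg.Agent.Lib.MinIndexSU
open Cfsg.Agent.Lib.MinIndexSp (perp mem_perp exists_perp)

universe u v

attribute [local instance] _root_.Classical.propDecidable

variable {F : Type u} [Field F] [Fintype F] {q : ℕ}
variable (hF : Fintype.card F = q ^ 2) {Ω : Type v} [MulAction (S 4 F q) Ω]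
include hF

theorem real_not_pm (h4 : 4 ≤ q) : ∃ a : F, a ^ q = a ∧ a ≠ 0 ∧ a ≠ 1 ∧ a * a ≠ 1 := by
  by_contra! h
  have hsub : (Finset.univ.filter fun a : F => a ^ q = a) ⊆ {0, 1, -1} := by
    intro a ha
    simp only [Finset.mem_insert, Finset.mem_singleton]
    by_cases h0 : a = 0
    · exact Or.inl h0
    by_cases h1 : a = 1
    · exact Or.inr (Or.inl h1)
    rcases mul_self_eq_one_iff.1 (h a (Finset.mem_filter.1 ha).2 h0 h1) with h' | h'
    exacts [Or.inr (Or.inl h'), Or.inr (Or.inr h')]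
  have := (Finset.card_le_card hsub).trans Finset.card_le_three
  rw [← Fintype.card_subtype, ← Nat.card_eq_fintype_card, Herm.card_fixed hF] at this
  omega

variable [Fintype Ω]

/-- No small action is free everywhere. -/
theorem false_of_large (h4 : 4 ≤ q) (hall : ∀ (x : Fin 4 → F), Valid q x → ∀ y : Ω, Free hF x y)
    (hM : Fintype.card Ω = q ^ 4 + q ^ 3) [Nonempty Ω] : False := by
  have hlt : Fintype.card Ω < (q + 1) * (q ^ 3 + 1) := by
    rw [hM]; nlinarith
  obtain ⟨e, f, HP⟩ := AutPSU.exists_pair hF (n := 4) (by norm_num)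
  obtain ⟨ω₀⟩ := ‹Nonempty Ω›
  have hfree₀ := hall e HP.valid_e ω₀
  have hiso₀ := all_iso hF HP hlt hfree₀
  obtain ⟨hA, -, hT, -⟩ := free_facts hF HP hlt hfree₀
  obtain ⟨-, hreal, hstab, -⟩ := iso_struct hF HP (m := 2) rfl hfree₀ hiso₀
  obtain ⟨a, haq, ha0, ha1, ha2⟩ := real_not_pm hF h4
  obtain ⟨D, hDd, hDi, hD⟩ := pairDil hF HP ha0
  let δ : S 4 F q := ⟨⟨D, by rw [hDd, haq, mul_inv_cancel₀ ha0]⟩, hDi⟩
  have hδL : IsL q e f δ a := by
    refine ⟨ha0, ?_, ?_⟩
    · show D *ᵥ e = _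
      rw [hD, HP.ee, HP.ef]; module
    · show D *ᵥ f = _
      rw [hD, HP.ff, HP.fe]; module
  have hδW : ∀ x, InW q e f x → mat δ *ᵥ x = x := fun x hx => by
    show D *ᵥ x = _
    rw [hD, hx.1, hx.2]; simp
  have hsame : Ann hF HP (δ • ω₀) = Ann hF HP ω₀ := by
    rw [Ann_smul hF HP hδL]
    refine Finset.eq_of_subset_of_card_le (Finset.image_subset_iff.2 fun v hv => ?_)
      (by rw [Finset.card_image_of_injective _ (psiL_injective hF HP hδL)])
    have h := hstab a⁻¹ (by rw [inv_pow, haq]) v hv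
    convert h using 1
    exact Subtype.ext (by simp only [psiL, Submodule.coe_smul, hδW _ (mem_WM.1 v.2)])
  -- one orbit on each translate
  have hone : ∀ y, Ann hF HP y = Ann hF HP ω₀ → y ∈ orb hF e f ω₀ := by
    intro y hy
    by_contra hno
    have hfib : ∀ B ∈ Tset hF HP ω₀,
        2 * q ^ 3 ≤ (Finset.univ.filter fun z : Ω => Ann hF HP z = B).card := by
      intro B hB
      obtain ⟨t, b, ht, rfl⟩ := (mem_Tset hF).1 hB
      have hdisj : Disjoint (orb hF e f ω₀) (orb hF e f y) := by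
        rw [Finset.disjoint_left]
        intro z hz hz'
        obtain ⟨w, c, hc, rfl⟩ := (mem_orb hF).1 hz
        obtain ⟨w', c', hc', h'⟩ := (mem_orb hF).1 hz'
        refine hno ((mem_orb hF).2 ⟨-w' + w, _, (cond_inv hF hc').mul hF hc, ?_⟩)
        rw [Submodule.coe_add, Submodule.coe_neg,
          ← U_mul hF HP (InW_neg hF HP (mem_WM.1 w'.2)) (mem_WM.1 w.2) (cond_inv hF hc') hc,
          mul_smul, ← U_inv hF HP (mem_WM.1 w'.2) hc', inv_smul_eq_iff, h']
      have h2 : (orb hF e f ω₀ ∪ orb hF e f y).card ≤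
          (Finset.univ.filter fun z : Ω => Ann hF HP z = Ann hF HP ω₀).card :=
        Finset.card_le_card fun z hz => by
          refine Finset.mem_filter.2 ⟨Finset.mem_univ _, ?_⟩
          rcases Finset.mem_union.1 hz with hz | hz
          · exact Ann_orb hF HP hz
          · rw [Ann_orb hF HP hz, hy]
      rw [Finset.card_union_of_disjoint hdisj, (free_facts hF HP hlt hfree₀).2.1,
        (free_facts hF HP hlt (hall e HP.valid_e y)).2.1, ← two_mul] at h2
      refine h2.trans (Finset.card_le_card_of_injOn (fun z => t • z) (fun z hz => ?_)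
        (MulAction.injective t).injOn)
      refine Finset.mem_filter.2 ⟨Finset.mem_univ _, ?_⟩
      rw [Ann_smul hF HP ht, Ann_smul hF HP ht, (Finset.mem_filter.1 hz).2]
    have hbig : ∑ B ∈ Tset hF HP ω₀, (Finset.univ.filter fun z : Ω => Ann hF HP z = B).card ≤
        Fintype.card Ω := by
      rw [← Finset.card_biUnion fun B _ C _ hne => ?_]
      · exact Finset.card_le_univ _
      rw [Function.onFun, Finset.disjoint_left]
      intro z hz hz'
      exact hne ((Finset.mem_filter.1 hz).2.symm.trans (Finset.mem_filter.1 hz').2)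
    have h3 := (Finset.card_nsmul_le_sum _ _ _ hfib).trans hbig
    rw [smul_eq_mul, hM] at h3
    have h1q : 0 < q ^ 3 := pow_pos (by omega) 3
    nlinarith [Nat.mul_le_mul_right (2 * q ^ 3) hT]
  -- the fixed point of the torus
  obtain ⟨w, c, hc, hwc⟩ := (mem_orb hF).1 (hone _ hsame)
  have h1a : (1 - a) ≠ 0 := sub_ne_zero.2 (Ne.symm ha1)
  have h1aa : (1 - a * a) ≠ 0 := sub_ne_zero.2 (Ne.symm ha2)
  set v : WM q e f := (1 - a)⁻¹ • w
  set d := (c - hm q (w : Fin 4 → F) (a • (v : Fin 4 → F))) / (1 - a * a)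
  have hd1 : d * (1 - a * a) = c - hm q (w : Fin 4 → F) (a • (v : Fin 4 → F)) :=
    div_mul_cancel₀ _ h1aa
  have hd : Cond q (v : Fin 4 → F) d := by
    set H := hm q (w : Fin 4 → F) w with hH
    set k := (1 - a)⁻¹
    have hk : k * (1 - a) = 1 := inv_mul_cancel₀ h1a
    have hkq : k ^ q = k := by rw [inv_pow, Herm.conj_sub hF, one_pow, haq]
    have hHq : H ^ q = H := AutPSU.hm_self_fixed hF _
    have hwv : hm q (w : Fin 4 → F) (a • (v : Fin 4 → F)) = a * (k * H) := by
      simp only [v, Submodule.coe_smul, hm_smul_left', hm_smul_right, show ((1 - a)⁻¹) ^ q = k from hkq,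
        haq, hH, k]
    have hd2 : d ^ q * (1 - a * a) = c ^ q - a * (k * H) := by
      have h := congrArg (fun z : F => z ^ q) hd1
      simp only [mul_pow, Herm.conj_sub hF, one_pow, hwv, haq, hkq, hHq] at h
      exact h
    rw [hwv] at hd1
    unfold Cond at hc ⊢
    rw [show hm q (v : Fin 4 → F) v = k * (k * H) by
      simp only [v, Submodule.coe_smul, hm_smul_left', hm_smul_right, show ((1 - a)⁻¹) ^ q = k from hkq,
        hH, k]]
    apply mul_right_cancel₀ h1aa
    linear_combination hd1 + hd2 + hc + (H * (k * (1 + a) + 1)) * hk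
  set ω := AutPSU.U hF e (v : Fin 4 → F) d • ω₀ with hω
  have hmem : ω ∈ orb hF e f ω₀ := (mem_orb hF).2 ⟨v, d, hd, rfl⟩
  have hconj : ∀ (x : WM q e f) (b : F), Cond q (x : Fin 4 → F) b →
      Cond q (a • (x : Fin 4 → F)) (a * a * b) ∧
        δ * AutPSU.U hF e (x : Fin 4 → F) b = AutPSU.U hF e (a • (x : Fin 4 → F)) (a * a * b) * δ := by
    intro x b hb
    have := IsL.conj hF HP hδL (mem_WM.1 x.2) hb
    rwa [haq, hδW _ (mem_WM.1 x.2)] at this
  have hδω : δ • ω = ω := by
    obtain ⟨h1, h2⟩ := hconj v d hd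
    rw [hω, ← mul_smul, h2, mul_smul, ← hwc, ← mul_smul,
      U_mul hF HP ((mem_WM.1 v.2).smul a) (mem_WM.1 w.2) h1 hc]
    congr 2
    · simp only [v, Submodule.coe_smul]
      match_scalars
      field_simp
      ring
    · linear_combination -hd1
  have hωA : Ann hF HP ω = Ann hF HP ω₀ := Ann_orb hF HP hmem
  have hfree := hall e HP.valid_e ω
  -- a transvection of the plane keeping the annihilator
  obtain ⟨u, hu, hu0⟩ := Finset.exists_mem_ne (s := Ann hF HP ω₀)
    (by rw [hA]; exact Nat.one_lt_pow (by norm_num) (by omega)) 0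
  have huu := hiso₀ u hu
  have huW := mem_WM.1 u.2
  obtain ⟨s, hs0, hs⟩ := exists_skew_ne_zero hF
  have htL := isL_T hF HP huW huu hs
  have hneg : ∀ x ∈ Ann hF HP ω₀, hm q (x : Fin 4 → F) u + hm q (x : Fin 4 → F) u = 0 := by
    intro x hx
    have h := hiso₀ _ (add_mem_Ann hF HP hx hu)
    rwa [Submodule.coe_add, hm_add_left, hm_add_right hF, hm_add_right hF, hiso₀ x hx, huu,
      hm_swap hF (x : Fin 4 → F) u, hreal x hx u hu, zero_add, add_zero] at h
  have hTsame : Ann hF HP (T hF (u : Fin 4 → F) s • ω) = Ann hF HP ω₀ := by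
    rw [Ann_smul hF HP htL, hωA]
    refine Finset.eq_of_subset_of_card_le (Finset.image_subset_iff.2 fun x hx => ?_)
      (by rw [Finset.card_image_of_injective _ (psiL_injective hF HP htL)])
    have hreal' : (s * hm q (x : Fin 4 → F) u) ^ q = s * hm q (x : Fin 4 → F) u := by
      have hsq : s ^ q = -s := by unfold Skew at hs; linear_combination hs
      rw [mul_pow, hreal x hx u hu, hsq]
      linear_combination (-s) * hneg x hx
    convert add_mem_Ann hF HP hx (hstab _ hreal' u hu) using 1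
    refine Subtype.ext ?_
    simp only [psiL, Submodule.coe_add, Submodule.coe_smul, inv_one, one_smul, T_mulVec hF huu hs]
  obtain ⟨w₁, c₁, hc₁, hw₁⟩ := (mem_orb hF).1 (hone _ hTsame)
  obtain ⟨w₂, c₂, hc₂, hw₂⟩ : ∃ (w₂ : WM q e f) (c₂ : F), Cond q (w₂ : Fin 4 → F) c₂ ∧
      AutPSU.U hF e (w₂ : Fin 4 → F) c₂ • ω = T hF (u : Fin 4 → F) s • ω := by
    refine ⟨w₁ + -v, _, hc₁.mul hF (cond_inv hF hd), ?_⟩
    rw [Submodule.coe_add, Submodule.coe_neg, ← U_mul hF HP (mem_WM.1 w₁.2)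
      (InW_neg hF HP (mem_WM.1 v.2)) hc₁ (cond_inv hF hd), mul_smul,
      ← U_inv hF HP (mem_WM.1 v.2) hd, hω, inv_smul_smul, hw₁]
  obtain ⟨h1, h2⟩ := hconj w₂ c₂ hc₂
  have hfix : AutPSU.U hF e (a • (w₂ : Fin 4 → F)) (a * a * c₂) • ω =
      AutPSU.U hF e (w₂ : Fin 4 → F) c₂ • ω := by
    conv_lhs => rw [← hδω]
    rw [← mul_smul, ← h2, mul_smul, hw₂, ← mul_smul]
    have hcomm : δ * T hF (u : Fin 4 → F) s = T hF (u : Fin 4 → F) s * δ := by
      rw [← mul_inv_eq_iff_eq_mul, T_conj hF huu hs, hδW _ huW]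
    rw [hcomm, mul_smul, hδω]
  -- the difference lies in the stabiliser
  have hwA : w₂ ∈ Wst hF HP ω := by
    have hmemW : -(a • w₂) + w₂ ∈ Wst hF HP ω := by
      refine ⟨_, (cond_inv hF h1).mul hF hc₂, ?_⟩
      simp only [Submodule.coe_add, Submodule.coe_neg, Submodule.coe_smul]
      rw [← U_mul hF HP (InW_neg hF HP ((mem_WM.1 w₂.2).smul a)) (mem_WM.1 w₂.2) (cond_inv hF h1)
        hc₂, mul_smul, ← U_inv hF HP ((mem_WM.1 w₂.2).smul a) h1, inv_smul_eq_iff, hfix]
    have hiso := all_iso hF HP hlt hfree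
    obtain ⟨hcA, -, hstab', -⟩ := iso_struct hF HP (m := 2) rfl hfree hiso
    have htr : ∀ x ∈ Ann hF HP ω, ∀ y ∈ Ann hF HP ω,
        hm q (x : Fin 4 → F) y + hm q (y : Fin 4 → F) x = 0 := fun x hx y hy => by
      have h := hiso _ (add_mem_Ann hF HP hx hy)
      rw [Submodule.coe_add, hm_add_left, hm_add_right hF, hm_add_right hF, hiso x hx, hiso y hy,
        zero_add, add_zero] at h
      exact h
    set WF := Finset.univ.filter fun x => x ∈ Wst hF HP ω with hWF
    have hWc : Nat.card (Wst hF HP ω) = WF.card := by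
      rw [← SetLike.coe_sort_coe, Nat.card_coe_set_eq, ← Set.ncard_coe_finset]
      congr 1; ext x; simp [hWF]
    have hsub : Ann hF HP ω ⊆ WF := by
      intro x hx
      refine Finset.mem_filter.2 ⟨Finset.mem_univ _, ?_⟩
      by_contra hcx
      obtain ⟨z, hz, hne⟩ := exists_perp _ (kap_injective hF HP) hcx
      exact hne (by rw [kap_apply, htr z hz x hx, AddChar.map_zero_eq_one])
    have hmul := card_Ann_mul_Wst hF HP (m := 2) rfl ω
    rw [hWc, hcA] at hmul
    have heq : Ann hF HP ω = WF := Finset.eq_of_subset_of_card_le hsub (by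
      rw [hcA]
      have : q ^ (2 * 2) = q ^ 2 * q ^ 2 := by ring
      rw [this] at hmul
      exact (Nat.eq_of_mul_eq_mul_left (pow_pos (by omega) 2) hmul).le)
    have h := hstab' (1 - a)⁻¹ (by rw [inv_pow, Herm.conj_sub hF, one_pow, haq])
      (-(a • w₂) + w₂) (by rw [heq]; exact Finset.mem_filter.2 ⟨Finset.mem_univ _, hmemW⟩)
    rw [show -(a • w₂) + w₂ = (1 - a) • w₂ by module, smul_smul, inv_mul_cancel₀ h1a, one_smul,
      heq] at h
    exact (Finset.mem_filter.1 h).2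
  obtain ⟨c₀, hc₀, hc₀fix⟩ := hwA
  have hD0 : Skew q (c₂ - c₀) := skew_of_cond hF hc₂ hc₀
  have hTω : T hF (u : Fin 4 → F) s • ω = T hF e (c₂ - c₀) • ω := by
    rw [← hw₂]
    conv_lhs => rw [show c₂ = c₀ + (c₂ - c₀) by ring]
    rw [← (U_T hF HP (mem_WM.1 w₂.2) hc₀ hD0).2, mul_smul, hc₀fix]
  obtain ⟨hD1, hD2⟩ := IsL.T_conj' hF HP hδL hD0
  have hfix2 : T hF e (a * a ^ q * (c₂ - c₀)) • ω = T hF e (c₂ - c₀) • ω := by
    conv_lhs => rw [← hδω]
    rw [← mul_smul, ← hD2, mul_smul, ← hTω, ← mul_smul]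
    have hcomm : δ * T hF (u : Fin 4 → F) s = T hF (u : Fin 4 → F) s * δ := by
      rw [← mul_inv_eq_iff_eq_mul, T_conj hF huu hs, hδW _ huW]
    rw [hcomm, mul_smul, hδω]
  have hnd : Skew q (-(c₂ - c₀)) := by
    unfold Skew at *; rw [Herm.conj_neg hF]; linear_combination -hD0
  have hz := hfree _ (Skew.add hF hnd hD1) (by
    rw [← T_add hF HP.ee hnd hD1, mul_smul, hfix2, ← mul_smul, T_add hF HP.ee hnd hD0,
      neg_add_cancel, T_zero hF HP.ee, one_smul])
  have hzero : c₂ - c₀ = 0 := by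
    rw [haq] at hz
    have h : (a * a - 1) * (c₂ - c₀) = 0 := by linear_combination hz
    exact (mul_eq_zero.1 h).resolve_left (sub_ne_zero.2 ha2)
  rw [hzero, T_zero hF HP.ee, one_smul] at hTω
  exact hs0 (hall u ⟨fun h => hu0 (Subtype.ext h), huu⟩ ω s hs hTω)

end Cfsg.Agent.Lib.MinIndexSU4
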